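import Cfsg.Agent.H97.JmDefs

/-! Sylow's congruence inside an overgroup, for a prime dividing its order once. -/

set_option autoImplicit false

namespace Cfsg.Agent.H97.JM

open Subgroup

universe u

theorem pCONG : CONG.{u} := by
  intro G _ _ H p e a hp haH ha h2 hN
  haveI := Fact.mk hp
  have hle : zpowers a ≤ H := (zpowers_le).mpr haH
  have hA : Nat.card ((zpowers a).subgroupOf H) = p ^ 1 := by
    rw [Nat.card_congr (subgroupOfEquivOfLe hle).toEquiv, Nat.card_zpowers, ha, pow_one]
  have hidx : ¬ p ∣ ((zpowers a).subgroupOf H).index := fun h' => h2 (by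
    rw [← ((zpowers a).subgroupOf H).card_mul_index, hA, pow_succ]
    exact Nat.mul_dvd_mul_left _ h')
  let P : Sylow p H := (IsPGroup.of_card hA).toSylow hidx
  have hP : (P : Subgroup H) = (zpowers a).subgroupOf H := rfl
  have hc := card_sylow_modEq_one p H
  rw [Nat.ModEq, Nat.mod_eq_of_lt hp.one_lt, P.card_eq_index_normalizer] at hc
  set N := normalizer ((zpowers a : Subgroup G) : Set G) with hNdef
  have hNP : normalizer ((P : Subgroup H) : Set H) = N.subgroupOf H := by
    rw [hP, hNdef, subgroupOf_normalizer_eq hle]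
  have hcard : Nat.card (N.subgroupOf H) = Nat.card ↥(H ⊓ N) := by
    rw [← inf_subgroupOf_left]
    exact Nat.card_congr (subgroupOfEquivOfLe inf_le_left).toEquiv
  have hmul := (N.subgroupOf H).card_mul_index
  have hpd : p ∣ Nat.card ↥(H ⊓ N) := by
    rw [← ha]
    exact (H ⊓ N).orderOf_dvd_natCard ⟨haH, le_normalizer (mem_zpowers a)⟩
  obtain ⟨d, hd⟩ := hpd
  have hdv : Nat.card ↥(H ⊓ N) ∣ Nat.card N := card_dvd_of_le inf_le_right
  have hpos : 0 < Nat.card ↥(H ⊓ N) := Nat.card_pos
  refine ⟨d, hd, ?_, ?_, ?_⟩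
  · rw [hd, hN] at hdv
    exact Nat.dvd_of_mul_dvd_mul_left hp.pos hdv
  · rw [← hd]
    exact card_dvd_of_le inf_le_left
  · rw [← hd, ← hmul, hcard, Nat.mul_div_cancel_left _ hpos, ← hNP]
    exact hc

end Cfsg.Agent.H97.JM
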