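import Cfsg.Agent.H41.S6Kit2
import Cfsg.Agent.H83.Base

/-! Project SP6, piece F11: fusion in the normalizer of the group of order `2 ^ 9`. -/

set_option autoImplicit false
set_option linter.unusedSectionVars false

namespace Cfsg.Agent.H86.SF

open Cfsg Subgroup
open Cfsg.Agent.H44 Cfsg.Agent.H55.Sp6 Cfsg.Agent.H2.L3E Cfsg.Agent.H41.S6
open Cfsg.Agent.H83 (cj mem_cj conj_mem_cj card_cj cj_mul cj_eq_self_iff)

universe u

variable {G : Type u} [Group G] {ι : Sp →* G} {t : G} {M : Subgroup G}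

/-- elementary, normalized by `t`, of order `512` -/
structure St (t : G) (M : Subgroup G) : Prop where
  ea : ∀ m ∈ M, m * m = 1
  nt : ∀ m ∈ M, t * m * t⁻¹ ∈ M
  card : Nat.card M = 512

theorem ea_comm (ea : ∀ m ∈ M, m * m = 1) {x y : G} (hx : x ∈ M) (hy : y ∈ M) :
    x * y = y * x := by
  rw [← inv_eq_of_mul_eq_one_right (ea _ (mul_mem hx hy)), mul_inv_rev,
    inv_eq_of_mul_eq_one_right (ea _ hx), inv_eq_of_mul_eq_one_right (ea _ hy)]

theorem ea_cj (ea : ∀ m ∈ M, m * m = 1) (x : G) : ∀ m ∈ cj x M, m * m = 1 := by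
  rintro _ ⟨m, hm, rfl⟩
  rw [← map_mul, ea m hm, map_one]

variable [Finite G] (k : KF) (h : Hy ι t) (ec : EaC ι t) (c3 : CIII ι t) (s : St t M)
include ec s

theorem St.noD {y : G} (hy : y ∈ M) : ¬ IsConj t y := fun c => by
  obtain ⟨x, rfl⟩ := isConj_iff.1 c
  have := (ec _ (ea_cj s.ea x⁻¹) fun z hz =>
    ea_comm (ea_cj s.ea x⁻¹) hz (mem_cj.2 (by rwa [inv_inv]))).1
  rw [card_cj, s.card] at this
  omega

include k h c3

theorem St.cen {m : G} (hm : m ∈ M) (c : m * t = t * m) : ∃ l, m = ι l := by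
  obtain ⟨l, e | rfl⟩ := h.cen m c
  · exact ⟨l, e⟩
  have := s.ea _ hm
  rw [mul_assoc, ← mul_assoc (ι l), ← h.ct, mul_assoc, h.ttx, ← map_mul, ← map_one ι] at this
  obtain ⟨p, hp⟩ := k.b.cls l (h.inj this)
  exact absurd ((c3 _ hp).trans (isConj_iff.2 ⟨_, h.conj_tl p l⟩).symm) (s.noD ec hm)

theorem St.split : ∃ J : Subgroup Sp, (∀ l, l ∈ J ↔ ∃ m ∈ M, m * t * m⁻¹ = t * ι l) ∧
    J ≤ M.comap ι ∧ (∀ m ∈ M, ∃ l ∈ J, m * t * m⁻¹ = t * ι l) ∧
    Nat.card (M.comap ι) * Nat.card J = 512 := by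
  have m1 : ∀ m ∈ M, t * (m * t * m⁻¹) ∈ M := fun m hm => by
    simpa only [h.tinv, mul_assoc] using mul_mem (s.nt m hm) (inv_mem hm)
  let φ : M →* G := MonoidHom.mk' (fun m => t * (m * t * (m : G)⁻¹)) fun m n => by
    calc _ = t * (m * (t * (t * (n * t * (n : G)⁻¹))) * (m : G)⁻¹) := by
          rw [h.ttx]; push_cast; group
      _ = t * (m * t * (t * (n * t * (n : G)⁻¹) * (m : G)⁻¹)) := by simp only [mul_assoc]
      _ = _ := by rw [ea_comm s.ea (m1 _ n.2) (inv_mem m.2)]; group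
  have m2 : φ.range ≤ ι.range := by
    rintro _ ⟨m, rfl⟩
    obtain ⟨l, e⟩ := s.cen k h ec c3 (m1 _ m.2) (by
      have c := ea_comm s.ea (s.nt _ m.2) (inv_mem m.2)
      rw [h.tinv] at c
      rw [h.ttx, ← mul_assoc, ← mul_assoc, c, mul_assoc, mul_assoc, h.tt, mul_one,
        inv_eq_of_mul_eq_one_right (s.ea _ m.2), mul_assoc])
    exact ⟨l, e.symm⟩
  have hk : φ.ker = ((M.comap ι).map ι).subgroupOf M := by
    ext m
    refine ⟨fun e => ?_, fun ⟨a, _, e⟩ => ?_⟩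
    · obtain ⟨l, e⟩ := s.cen k h ec c3 m.2 (mul_inv_eq_iff_eq_mul.1
        ((eq_inv_of_mul_eq_one_right e).trans h.tinv))
      exact ⟨l, mem_comap.2 (e ▸ m.2), e.symm⟩
    · show t * (m * t * (m : G)⁻¹) = 1
      rw [← show ι a = m from e, h.conj_t, h.tt]
  refine ⟨φ.range.comap ι, fun l => ⟨fun ⟨m, e⟩ => ⟨m, m.2, by rw [← e]; exact (h.ttx _).symm⟩,
    fun ⟨m, hm, e⟩ => ⟨⟨m, hm⟩, (congrArg _ e).trans (h.ttx _)⟩⟩,
    fun l ⟨m, e⟩ => mem_comap.2 (e ▸ m1 _ m.2), fun m hm => ?_, ?_⟩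
  · obtain ⟨l, e⟩ := m2 ⟨⟨m, hm⟩, rfl⟩
    exact ⟨l, ⟨_, e.symm⟩, by rw [e]; exact (h.ttx _).symm⟩
  · rw [← h.card_map (φ.range.comap ι), map_comap_eq_self m2, ← index_ker, ← h.card_map,
      ← Nat.card_congr (subgroupOfEquivOfLe (map_comap_le ι M)).toEquiv, ← hk, card_mul_index,
      s.card]

omit k ec c3 in
theorem St.fin {w : ℕ → G} {M0 : Subgroup G} (mv : MV ι t Lam M0) (kk : K11 ι t w M0)
    (c : ∀ m ∈ M, (∀ a ∈ A, m * ι a = ι a * m) ∧ ∃ a ∈ A, m * t * m⁻¹ = t * ι a) : M = M0 := by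
  have c0 : Nat.card M0 = 512 := by rw [h.MV_card Lam_le_A mv, card_Lam]
  by_cases hw : M ≤ MW ι w
  · exact eq_of_le_of_card_ge (fun m hm => kk.om m (hw hm) (s.ea m hm)) (by rw [c0, s.card])
  obtain ⟨n, hn, hn'⟩ := SetLike.not_le_iff_exists.1 hw
  have tn := fun m hm => kk.nh m (c m hm).1 (c m hm).2
  have k1 : ∀ m ∈ M, m ∈ MW ι w → m ∈ A.map ι := fun m hm hm' => by
    have m0 := kk.om m hm' (s.ea m hm)
    refine mv.ker m m0 (mul_right_cancel (b := n) ?_)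
    rw [mul_assoc, ← kk.cen _ ((tn n hn).resolve_left hn') m m0, mul_assoc, mul_assoc,
      ea_comm s.ea hn hm]
  have sub : (M : Set G) ⊆ A.map ι ∪ (n * ·) '' A.map ι := fun m hm =>
    or_iff_not_imp_left.2 fun c => ⟨n⁻¹ * m, k1 _ (mul_mem (inv_mem hn) hm) (by
      simpa [mul_assoc] using mul_mem (inv_mem ((tn n hn).resolve_left hn'))
        ((tn m hm).resolve_left fun e => c (k1 m hm e))), mul_inv_cancel_left _ _⟩
  have c1 : ((A.map ι : Subgroup G) : Set G).ncard = 64 := (h.card_map A).trans card_A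
  have := (Set.ncard_le_ncard sub).trans (Set.ncard_union_le _ _)
  rw [Set.ncard_image_of_injective _ (mul_right_injective n), c1] at this
  exact absurd (s.card.ge.trans this) (by norm_num)

omit k h ec c3 s [Finite G] in
theorem f11 : F11Stmt.{u} := by
  intro k G _ _ ι t h ec _ c3 pq w M0 wv mv kk x hx hU
  have nm : ∀ y, x * y * x⁻¹ ∈ normalizer (M0 : Set G) → ∀ m ∈ cj x⁻¹ M0,
      y * m * y⁻¹ ∈ cj x⁻¹ M0 := fun y hy m hm => mem_cj.2 (by
    simpa [mul_assoc] using (mem_normalizer_iff.1 hy _).1 (mem_cj.1 hm))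
  have s : St t (cj x⁻¹ M0) :=
    ⟨ea_cj mv.ea _, nm t hx, by rw [card_cj, h.MV_card Lam_le_A mv, card_Lam]⟩
  obtain ⟨J, j1, j2, j3, j4⟩ := s.split k h ec c3
  have sq : ∀ l ∈ (cj x⁻¹ M0).comap ι, l * l = 1 := fun l hl =>
    h.inj (by rw [map_mul, s.ea _ hl, map_one])
  obtain ⟨e1, e2⟩ := k.b.ea _ sq
  have e3 := card_le_of_le j2
  by_cases c : Nat.card ((cj x⁻¹ M0).comap ι) = 64
  · obtain ⟨l, hl⟩ := e2 c
    have s' : St t (cj (ι l) (cj x⁻¹ M0)) := ⟨ea_cj s.ea _, by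
      rintro _ ⟨m, hm, rfl⟩
      convert conj_mem_cj (g := ι l) (s.nt m hm) using 1
      rw [← conj_mul, ← conj_mul, ← conj_inv, h.conj_t]; rfl, by rw [card_cj, s.card]⟩
    have eA : cj l ((cj x⁻¹ M0).comap ι) = A := eq_of_le_of_card_ge
      (by rintro _ ⟨y, hy, rfl⟩; exact hl y hy) (by rw [card_cj, c, card_A])
    have eA' : ∀ a, ι a ∈ cj (ι l) (cj x⁻¹ M0) ↔ a ∈ A := fun a => by
      rw [← eA, mem_cj, mem_cj (g := l), mem_comap, map_mul, map_mul, map_inv]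
    obtain ⟨J', -, k2, k3, -⟩ := s'.split k h ec c3
    have := s'.fin h mv kk fun m hm => ⟨fun a ha => ea_comm s'.ea hm ((eA' a).2 ha),
      (k3 m hm).imp fun a ha => ⟨(eA' a).1 (k2 ha.1), ha.2⟩⟩
    rw [← cj_mul, cj_eq_self_iff] at this
    refine ⟨_, inv_mem this, ?_⟩
    calc _ = x * ((ι l)⁻¹ * t * (ι l)⁻¹⁻¹) * x⁻¹ := by group
      _ = _ := by rw [← map_inv, h.conj_t]
  have nI : ∀ u ∈ T0, ∀ y ∈ (cj x⁻¹ M0).comap ι, u * y * u⁻¹ ∈ (cj x⁻¹ M0).comap ι :=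
    fun u hu y hy => by simpa only [mem_comap, map_mul, map_inv] using nm _ (hU u hu) _ hy
  have c2 : Nat.card ((cj x⁻¹ M0).comap ι) = 32 ∧ Nat.card J = 16 := by
    generalize Nat.card ((cj x⁻¹ M0).comap ι) = a at *
    generalize Nat.card J = b at *
    interval_cases a <;> omega
  have le : (cj x⁻¹ M0).comap ι ≤ T0 := le_sup_right.trans (sylow_T0.eq_of_le
    (H83.isPGroup_sup sylow_T0.isPGroup (H83.isPGroup_iff.2 fun y hy => ⟨1, (sq y hy) ▸ pow_two y⟩)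
      fun u hu => mem_normalizer_fintype (nI u hu)) le_top le_sup_left).le
  exfalso
  rcases k.c.nea _ J j2 le sq nI (fun u hu y hy => by
    obtain ⟨m, hm, e⟩ := (j1 y).1 hy
    refine (j1 _).2 ⟨_, nm _ (hU u hu) m hm, ?_⟩
    calc _ = ι u * (m * ((ι u)⁻¹ * t * (ι u)⁻¹⁻¹) * m⁻¹) * (ι u)⁻¹ := by group
      _ = _ := by rw [← h.conj_tl, ← e, ← map_inv ι u, h.conj_t]) c2.1 c2.2 with
    ⟨a1, a2⟩ | ⟨v, hv, u, hu, b1, b2, b3, a1, a2⟩
  · have := s.fin h mv kk fun m hm => by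
      obtain ⟨j, hj, e⟩ := j3 m hm
      refine ⟨fun a ha => ?_, j, a1 (j2 hj), e⟩
      obtain ⟨n, hn, e'⟩ := wv.sur j (a1 (j2 hj))
      have cn := (wv.mtr n hn).1
      obtain ⟨l, hl⟩ := h.cen (n⁻¹ * m) (by
        calc _ = n⁻¹ * (m * t * m⁻¹) * m := by group
          _ = _ := by rw [e, ← e']; group)
      have q : ∀ y, Commute (n⁻¹ * m) (ι y) ↔ Commute l y := fun y => by
        rcases hl with hl | hl <;> rw [hl]
        · exact ⟨fun c => c.of_map h.inj, fun c => c.map ι⟩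
        · exact ⟨fun c => (by simpa using (Commute.inv_left (h.ct y)).mul_left c :
            Commute (ι l) (ι y)).of_map h.inj, fun c => Commute.mul_left (h.ct y) (c.map ι)⟩
      have := Commute.mul_left (cn a ha) ((q a).2 (A_comm (a2 l fun y hy => (q y).1
        ((Commute.inv_left (cn y (a1 hy))).mul_left (ea_comm s.ea hm hy))) ha))
      rwa [mul_inv_cancel_left] at this
    have c3 := card_le_of_le (map_le_iff_le_comap.1 (this ▸ mv.le))
    rw [card_A, c2.1] at c3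
    omega
  · obtain ⟨m, hm, e⟩ := (j1 _).1 a1
    obtain ⟨q, p⟩ := pq.ex v hv b1
    obtain ⟨l, hl⟩ := h.cen (q⁻¹ * m) (by
      calc _ = q⁻¹ * (m * t * m⁻¹) * m := by group
        _ = _ := by rw [e, ← p.tr]; group)
    have e1 : q⁻¹ * m * ι (sg 1 u) * (q⁻¹ * m)⁻¹ = ι (sg 1 u * g 1) := by
      have := p.sv u hu b2
      rw [b3, pow_one] at this
      have e0 : q * ι (sg 1 u * g 1) * q⁻¹ = ι (sg 1 u) := by
        rw [map_mul, ← conj_mul, this, p.b, mul_inv_cancel_right, ← map_mul, mul_assoc,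
          A_sq (g_mem_A (by norm_num)), mul_one]
      calc _ = q⁻¹ * (m * ι (sg 1 u) * m⁻¹) * q := by group
        _ = _ := by rw [ea_comm s.ea hm a2, mul_inv_cancel_right, ← e0]; group
    refine (alt_sg hu b2).2 ?_
    rw [← h.inj (a₁ := l * sg 1 u * l⁻¹) (Eq.trans ?_ e1)]
    · exact (alt_sg hu b2).1.conj l
    rw [map_mul, map_mul, map_inv]
    rcases hl with hl | hl <;> rw [hl]
    rw [mul_inv_rev, mul_assoc t, mul_assoc t, ← mul_assoc _ (ι l)⁻¹, ← map_inv, ← map_mul,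
      ← map_mul, ← mul_assoc, h.ct, mul_inv_cancel_right]

end Cfsg.Agent.H86.SF
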