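import Mathlib
import Cfsg.Agent.H74.UVDefs

/-! Project UV, piece ORBG: orbit numbers of a subgroup containing all stabilisers. -/

set_option autoImplicit false

namespace Cfsg.Agent.H86.UvOrbg

open Cfsg.Agent.H74.UV Finset

universe u

open Classical in
theorem burn {E K : Type u} [Field E] [Field K] [Algebra E K] [Finite K] [Fintype (K ≃ₗ[E] K)]
    (H : Subgroup (K ≃ₗ[E] K)) :
    ∑ g ∈ univ.filter (· ∈ H), Nat.card {x : K // g x = x} = nO H * Nat.card H := by
  have := Fintype.ofFinite (MulAction.orbitRel.Quotient H K)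
  have := fun a : H => Fintype.ofFinite (MulAction.fixedBy K a)
  have h := MulAction.sum_card_fixedBy_eq_card_orbits_mul_card_group H K
  rw [sum_subtype _ (p := (· ∈ H)) (by simp), nO, Nat.card_eq_fintype_card,
    Nat.card_eq_fintype_card (α := H), ← h]
  exact sum_congr rfl fun a _ => by rw [← Nat.card_eq_fintype_card]; rfl

theorem orbg : OrbgStmt.{u} := by
  intro E K _ _ _ _ G Y hY h
  classical
  have : Finite (K ≃ₗ[E] K) := Finite.of_injective (fun g => (g : K → K)) DFunLike.coe_injective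
  have := Fintype.ofFinite (K ≃ₗ[E] K)
  have hs : univ.filter (· ∈ Y) ⊆ univ.filter (· ∈ G) := fun g hg =>
    mem_filter.2 ⟨mem_univ _, hY (mem_filter.1 hg).2⟩
  have hc : ∀ H : Subgroup (K ≃ₗ[E] K), #(univ.filter (· ∈ H)) = Nat.card H := fun H => by
    rw [Nat.card_eq_fintype_card, Fintype.card_subtype]
  have h1 := sum_sdiff (f := fun g : K ≃ₗ[E] K => Nat.card {x : K // g x = x}) hs
  have h2 : ∑ g ∈ univ.filter (· ∈ G) \ univ.filter (· ∈ Y), Nat.card {x : K // g x = x} =
      #(univ.filter (· ∈ G) \ univ.filter (· ∈ Y)) := by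
    rw [card_eq_sum_ones]
    refine sum_congr rfl fun g hg => ?_
    simp only [mem_sdiff, mem_filter, mem_univ, true_and] at hg
    refine Nat.card_eq_one_iff_exists.2 ⟨⟨0, map_zero g⟩, fun y => Subtype.ext ?_⟩
    by_contra h0
    exact hg.2 (h y.1 h0 g hg.1 y.2)
  have h3 := card_sdiff_add_card_eq_card hs
  have h4 := (Y.subgroupOf G).card_mul_index
  rw [Nat.card_congr (Subgroup.subgroupOfEquivOfLe hY).toEquiv] at h4
  rw [h2, burn, burn] at h1
  rw [hc, hc] at h3
  have h5 : 0 < Nat.card Y := Nat.card_pos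
  refine Nat.eq_of_mul_eq_mul_left h5 ?_
  change Nat.card Y * Y.relIndex G = _ at h4
  rw [mul_add, mul_add, ← mul_assoc, h4]
  nlinarith

end Cfsg.Agent.H86.UvOrbg
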