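import Cfsg.Agent.H63.AnDefs2

/-!
# Even fusion and the twist
-/

set_option autoImplicit false
set_option linter.unusedSectionVars false

namespace Cfsg.Agent.H86.An

open Cfsg Cfsg.Agent.H63 Cfsg.Agent.H63.SL Cfsg.Agent.H63.AN Subgroup
open Cfsg.Agent.H7.AA
open Equiv (swap Perm)
open Equiv.Perm (sign)
open scoped commutatorElement

universe u

section

variable {G : Type u} [Group G] {α : Type} [Fintype α] [DecidableEq α]
  {ψ : alternatingGroup α →* G} {t g : G} {p p' : Perm α}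

theorem is2_of_sq {x : G} (h : x * x = 1) : Is2 x := ⟨1, by rw [pow_one, pow_two, h]⟩

theorem five (B : Bs ψ t) : 5 ≤ Fintype.card α := by have := B.nine; omega

theorem conj_of {x y : G} (g : G) (h : g * x * g⁻¹ = y) : IsConj x y := isConj_iff.2 ⟨g, h⟩

theorem ev_sq {a : Perm α} (h : a * a = 1) (ha : sign a = 1) : ev ψ a * ev ψ a = 1 := by
  rw [← ev_mul ha ha, h, ev_one]

theorem cj_sq {a : Perm α} (h : a * a = 1) (ha : sign a = 1) (g : G) :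
    g⁻¹ * ev ψ a * g * (g⁻¹ * ev ψ a * g) = 1 := by
  rw [show g⁻¹ * ev ψ a * g * (g⁻¹ * ev ψ a * g) = g⁻¹ * (ev ψ a * ev ψ a) * g by group,
    ev_sq h ha, mul_one, inv_mul_cancel]

theorem ts_iff (B : Bs ψ t) (K : Kit ψ t) {x : Perm α} (h : x * x = 1) (hx : sign x = 1) :
    TS ψ t x.support.card ↔ IsConj t (t * ev ψ x) := by
  refine ⟨?_, fun h1 => ⟨x, h, hx, rfl, h1⟩⟩
  rintro ⟨q, h1, h2, h3, h4⟩
  obtain ⟨a, ha, rfl⟩ := K.typ q x h1 h h3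
  refine h4.trans (conj_of (ev ψ a) ?_)
  rw [ev_conj ha h2, ← mul_assoc, ← KA_ev B.tK]; group

theorem sign_der {q r : Perm α} (hr : r ∈ ⁅CA q, CA q⁆) : r ∈ CA q :=
  commutator_le_self _ hr

theorem der_mem {q : Perm α} (h : ∀ a ∈ CA q, Commute (g⁻¹ * ev ψ a * g) t) {r : Perm α}
    (hr : r ∈ ⁅CA q, CA q⁆) : g⁻¹ * ev ψ r * g ∈ ⁅C1[t], C1[t]⁆ := by
  have h1 : ⁅CA q, CA q⁆ ≤
      ((⁅C1[t], C1[t]⁆ : Subgroup G).comap (cj g⁻¹ ψ)).map (alternatingGroup α).subtype := by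
    refine commutator_le.2 fun a ha b hb =>
      ⟨⁅(⟨a, ha.2⟩ : alternatingGroup α), (⟨b, hb.2⟩ : alternatingGroup α)⁆, ?_, rfl⟩
    rw [SetLike.mem_coe, mem_comap, map_commutatorElement]
    refine commutator_mem_commutator ?_ ?_
    · rw [cj_apply, inv_inv, ← ev_coe]
      exact mem_centralizer_singleton_iff.2 (h a ha)
    · rw [cj_apply, inv_inv, ← ev_coe]
      exact mem_centralizer_singleton_iff.2 (h b hb)
  obtain ⟨σ, h2, rfl⟩ := h1 hr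
  rw [SetLike.mem_coe, mem_comap, cj_apply, inv_inv, ← ev_coe] at h2
  exact h2

theorem der_ex (B : Bs ψ t) (K : Kit ψ t) {q : Perm α}
    (h : ∀ a ∈ CA q, Commute (g⁻¹ * ev ψ a * g) t) {r : Perm α}
    (hr : r ∈ ⁅CA q, CA q⁆) (h2 : r * r = 1) :
    ∃ r', sign r' = 1 ∧ r' * r' = 1 ∧ (r ≠ 1 → r' ≠ 1) ∧ g⁻¹ * ev ψ r * g = ev ψ r' := by
  have hs := (mem_CA.1 (sign_der hr)).2
  obtain ⟨r', h3, h4⟩ := mem_range_iff.1 (K.der _ (der_mem h hr) (is2_of_sq (cj_sq h2 hs g)))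
  refine ⟨r', h3, ev_eq_one B.inj (by simp) ?_, fun h5 h6 => h5 (ev_eq_one B.inj hs ?_), h4.symm⟩
  · rw [ev_mul h3 h3, h4, cj_sq h2 hs]
  · rw [h6, ev_one] at h4
    rw [show ev ψ r = g * (g⁻¹ * ev ψ r * g) * g⁻¹ by group, ← h4, mul_one, mul_inv_cancel]

theorem six_le {ρ : Perm α} (h : ρ * ρ = 1) (hs : sign ρ ≠ 1) (hn : ¬ ρ.IsSwap) :
    6 ≤ ρ.support.card := by
  have : Fact (Nat.Prime 2) := ⟨Nat.prime_two⟩
  have h1 := Equiv.Perm.cycleType_of_pow_prime_eq_one (p := 2) (σ := ρ) (by rw [pow_two, h])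
  have h2 := Equiv.Perm.sum_cycleType ρ
  have h3 := Equiv.Perm.sign_of_cycleType ρ
  rw [h2] at h3
  rw [h1, Multiset.sum_replicate, smul_eq_mul] at h2
  rw [← Equiv.Perm.card_support_eq_two] at hn
  by_contra h4
  obtain ⟨k, hk⟩ : ∃ k, k = Multiset.card ρ.cycleType := ⟨_, rfl⟩
  rw [← hk] at h2 h3
  have h5 : k = 0 ∨ k = 2 := by omega
  rw [← h2] at h3
  rcases h5 with rfl | rfl <;> exact hs (by rw [h3]; decide)

theorem comm_t (B : Bs ψ t) (hp : sign p = 1) (gt : g * t * g⁻¹ = t * ev ψ p) {a : Perm α}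
    (ha : a ∈ CA p) : Commute (g⁻¹ * ev ψ a * g) t := by
  have h1 := ev_comm (ψ := ψ) (mem_CA.1 ha).2 hp (mem_CA.1 ha).1
  have h2 : ev ψ a * (g * t * g⁻¹) = g * t * g⁻¹ * ev ψ a := by
    rw [gt, ← mul_assoc, ← KA_ev B.tK, mul_assoc, h1, mul_assoc]
  change g⁻¹ * ev ψ a * g * t = t * (g⁻¹ * ev ψ a * g)
  calc g⁻¹ * ev ψ a * g * t = g⁻¹ * (ev ψ a * (g * t * g⁻¹)) * g := by group
    _ = _ := by rw [h2]; group

theorem cm_of (B : Bs ψ t) (hp : sign p = 1) (hp' : sign p' = 1)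
    (gp : g⁻¹ * ev ψ p * g = ev ψ p') {a ρ : Perm α} (ha : a ∈ CA p)
    (h : Acts ψ (g⁻¹ * ev ψ a * g) ρ) : Commute ρ p' := by
  refine h.comm_perm B.inj hp' ?_
  have h1 := ev_comm (ψ := ψ) (mem_CA.1 ha).2 hp (mem_CA.1 ha).1
  rw [← gp]
  calc g⁻¹ * ev ψ a * g * (g⁻¹ * ev ψ p * g) = g⁻¹ * (ev ψ a * ev ψ p) * g := by group
    _ = _ := by rw [h1]; group

/-- The two cases for an involution with even image. -/
theorem cases_of (B : Bs ψ t) (K : Kit ψ t) {φ φ' : Perm α → Perm α} (hp : sign p = 1)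
    (hp' : sign p' = 1) (gt : g * t * g⁻¹ = t * ev ψ p) (gp : g⁻¹ * ev ψ p * g = ev ψ p')
    (a1 : ∀ a ∈ CA p, Acts ψ (g⁻¹ * ev ψ a * g) (φ a))
    (a2 : ∀ b ∈ CA p', Acts ψ (g * ev ψ b * g⁻¹) (φ' b)) {a : Perm α} (ha : a ∈ CA p)
    (h2 : a * a = 1) (hs : sign (φ a) = 1) :
    (g⁻¹ * ev ψ a * g = ev ψ (φ a) ∧ φ' (φ a) = a) ∨
      (g⁻¹ * ev ψ a * g = t * ev ψ (φ a) ∧ g * ev ψ (φ a) * g⁻¹ = t * ev ψ (p * a) ∧
        φ' (φ a) = p * a) := by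
  have hsa := (mem_CA.1 ha).2
  have h3 := a2 _ (mem_CA.2 ⟨cm_of B hp hp' gp ha (a1 a ha), hs⟩)
  rcases K.ev2 _ _ (comm_t B hp gt ha) (is2_of_sq (cj_sq h2 hsa g)) (a1 a ha) hs with h | h
  · refine Or.inl ⟨h, h3.uniq (five B) B.inj ?_⟩
    rw [← h, show g * (g⁻¹ * ev ψ a * g) * g⁻¹ = ev ψ a by group]
    exact acts_ev hsa
  · have h4 : g * ev ψ (φ a) * g⁻¹ = t * ev ψ (p * a) := by
      rw [ev_mul hp hsa, ← mul_assoc, ← gt]
      calc g * ev ψ (φ a) * g⁻¹ = g * (t * t * ev ψ (φ a)) * g⁻¹ := by rw [B.t2, one_mul]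
        _ = g * (t * (t * ev ψ (φ a))) * g⁻¹ := by group
        _ = _ := by rw [← h]; group
    refine Or.inr ⟨h, h4, h3.uniq (five B) B.inj ?_⟩
    rw [h4]
    simpa using (acts_of_KA B.tK).mul (acts_ev (ψ := ψ) (σ := p * a) (by simp [hp, hsa]))

theorem tw1 (B : Bs ψ t) (K : Kit ψ t) {φ φ' : Perm α → Perm α} (p2 : p * p = 1) (p1 : p ≠ 1)
    (hp : sign p = 1) (hp' : sign p' = 1) (gt : g * t * g⁻¹ = t * ev ψ p)
    (gp : g⁻¹ * ev ψ p * g = ev ψ p')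
    (a1 : ∀ a ∈ CA p, Acts ψ (g⁻¹ * ev ψ a * g) (φ a))
    (a2 : ∀ b ∈ CA p', Acts ψ (g * ev ψ b * g⁻¹) (φ' b)) : Tw1 p p' φ φ' (TS ψ t) := by
  have h5 := five B
  refine ⟨p2, p1, hp, fun a ha b hb => ?_, fun a ha => cm_of B hp hp' gp ha (a1 a ha), ?_,
    fun a ha h2 h => ?_, fun a ha b hb => ?_, fun a ha h2 => ?_, fun a ha h2 hs => ?_⟩
  · refine (a1 _ (mul_mem ha hb)).uniq h5 B.inj ?_
    rw [ev_mul (mem_CA.1 ha).2 (mem_CA.1 hb).2, show g⁻¹ * (ev ψ a * ev ψ b) * g =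
      g⁻¹ * ev ψ a * g * (g⁻¹ * ev ψ b * g) by group]
    exact (a1 a ha).mul (a1 b hb)
  · refine (a1 p (mem_CA.2 ⟨Commute.refl p, hp⟩)).uniq h5 B.inj ?_
    rw [gp]
    exact acts_ev hp'
  · have hsa := (mem_CA.1 ha).2
    rcases B.r2 _ (h ▸ a1 a ha).KA (comm_t B hp gt ha) (is2_of_sq (cj_sq h2 hsa g)) with h3 | h3
    · refine ev_eq_one B.inj hsa ?_
      rw [show ev ψ a = g * (g⁻¹ * ev ψ a * g) * g⁻¹ by group, h3, mul_one, mul_inv_cancel]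
    · exact (K.nl a (conj_of g (by rw [← h3]; group))).elim
  · have hsa := (mem_CA.1 ha).2
    have h1 : Commute (φ' b) p := cm_of (g := g⁻¹) B hp' hp (by rw [← gp]; group) hb
      (by rw [inv_inv]; exact a2 b hb)
    have h2 : φ' b * a * (φ' b)⁻¹ ∈ CA p :=
      mem_CA.2 ⟨(h1.mul_left (mem_CA.1 ha).1).mul_left h1.inv_left, by rw [sign_conj', hsa]⟩
    refine (a1 _ h2).uniq h5 B.inj ?_
    rw [← a2 b hb a hsa, show g⁻¹ * (g * ev ψ b * g⁻¹ * ev ψ a * (g * ev ψ b * g⁻¹)⁻¹) * g =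
      ev ψ b * (g⁻¹ * ev ψ a * g) * (ev ψ b)⁻¹ by group]
    exact (acts_ev (mem_CA.1 hb).2).conj (a1 a ha)
  · obtain ⟨a', h3, -, -, h4⟩ := der_ex B K (fun c hc => comm_t B hp gt hc) ha h2
    have ha' := sign_der ha
    have h6 : φ a = a' := (a1 a ha').uniq h5 B.inj (by rw [h4]; exact acts_ev h3)
    rcases cases_of B K hp hp' gt gp a1 a2 ha' h2 (h6 ▸ h3) with h | h
    · exact h.2
    · rw [h4, h6] at h
      exact (B.t1 (mul_eq_right.1 h.1.symm)).elim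
  · have hsa := (mem_CA.1 ha).2
    have h3 : p * a * (p * a) = 1 := by
      rw [mul_assoc, ← mul_assoc a, (mem_CA.1 ha).1.eq, mul_assoc, h2, mul_one, p2]
    have h4 : φ a * φ a = 1 :=
      ((a1 a ha).mul (a1 a ha)).uniq h5 B.inj (by rw [cj_sq h2 hsa]; exact acts_one)
    have h6 : sign (p * a) = 1 := by simp [hp, hsa]
    rw [ts_iff B K h3 h6, ts_iff B K h4 hs]
    rcases cases_of B K hp hp' gt gp a1 a2 ha h2 hs with h | h
    · have h7 : IsConj (t * ev ψ (φ a)) (t * ev ψ (p * a)) := conj_of g (by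
        rw [ev_mul hp hsa, ← mul_assoc t, ← gt, ← h.1]; group)
      exact Or.inl ⟨h.2, fun h8 => h8.trans h7.symm, fun h8 => h8.trans h7⟩
    · refine Or.inr ⟨h.2.2, fun h8 => K.nl _ (h8.trans (conj_of g h.2.1).symm),
        fun h8 => K.nl a (h8.trans (conj_of g ?_))⟩
      rw [← h.1]; group

end

theorem e3 (e : E3pStmt) : E3Stmt.{u} := by
  intro G _ _ α _ _ ψ t B K _ h10 hP
  obtain ⟨d, ρ, hd, hn⟩ : ∃ d ρ, D1 ψ t d ρ ∧ ¬ ρ.IsSwap := by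
    by_contra h
    exact hP fun d ρ hd => not_not.1 fun h1 => h ⟨d, ρ, hd, h1⟩
  obtain ⟨g, hg⟩ := isConj_iff.1 hd.cj
  have d2 : d * d = 1 := by
    rw [← hg, show g * t * g⁻¹ * (g * t * g⁻¹) = g * (t * t) * g⁻¹ by group, B.t2, mul_one,
      mul_inv_cancel]
  have r2 : ρ * ρ = 1 := (hd.ac.mul hd.ac).uniq (five B) B.inj (by rw [d2]; exact acts_one)
  have r1 : ρ ≠ 1 := fun h => by
    rcases B.r2 d (h ▸ hd.ac).KA hd.cm (is2_of_sq d2) with h1 | h1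
    · exact B.t1 (isConj_one_left.1 (h1 ▸ hd.cj))
    · exact hd.ne h1
  have ne : ∀ x : Perm α, x ≠ 1 → x.support.card ≠ 0 := fun x hx h =>
    hx (Equiv.Perm.card_support_eq_zero.1 h)
  by_cases hs : sign ρ = 1
  · rcases K.ev2 d ρ hd.cm (is2_of_sq d2) hd.ac hs with h | h
    · exact (K.nl ρ (h ▸ hd.cj)).elim
    · exact ⟨_, ne ρ r1, ρ, r2, hs, rfl, h ▸ hd.cj⟩
  obtain ⟨r, hr, hr1, hr2, hr3⟩ := e α h10 ρ r2 (six_le r2 hs hn)
  have h1 : r * ρ * (r * ρ) = 1 := by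
    rw [mul_assoc, ← mul_assoc ρ, ← (mem_CA.1 (sign_der hr)).1.eq, mul_assoc, r2, mul_one, hr2]
  obtain ⟨a, ha, h2⟩ := K.typ ρ (r * ρ) r2 h1 hr3.symm
  have h3 := K.cls d ρ hd.cm hd.ac a ha
  rw [h2, mul_inv_cancel_right] at h3
  obtain ⟨r', h4, h5, h6, h7⟩ := der_ex (g := g) B K (q := ρ) (fun c hc => by
    have h8 := hd.ac.comm (mem_CA.1 hc).2 (mem_CA.1 hc).1.eq.symm
    rw [← hg] at h8
    change g⁻¹ * ev ψ c * g * t = t * (g⁻¹ * ev ψ c * g)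
    calc g⁻¹ * ev ψ c * g * t = g⁻¹ * (ev ψ c * (g * t * g⁻¹)) * g := by group
      _ = _ := by rw [← h8]; group) hr hr2
  refine ⟨_, ne r' (h6 hr1), r', h5, h4, rfl, (hd.cj.trans (conj_of _ h3)).trans
    (conj_of g⁻¹ ?_)⟩
  rw [KA_ev B.tK, ← h7, ← hg]; group

theorem tw0 (kp : KpStmt) : Tw0Stmt.{u} := by
  intro G _ _ α _ _ ψ t B K _ g p p2 p1 hp gt
  obtain ⟨p', hp', p2', p1', gp⟩ := der_ex B K (fun c hc => comm_t B hp gt hc)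
    ((kp α B.nine).2 p p2 hp p ⟨hp, fun _ => Or.inr rfl⟩) p2
  have gt' : g⁻¹ * t * g⁻¹⁻¹ = t * ev ψ p' := by
    calc g⁻¹ * t * g⁻¹⁻¹ = g⁻¹ * (t * (ev ψ p * ev ψ p)) * g := by rw [ev_sq p2 hp]; group
      _ = g⁻¹ * (t * ev ψ p) * g * (g⁻¹ * ev ψ p * g) := by group
      _ = _ := by rw [← gt, gp]; group
  have h1 : ∀ a : Perm α, ∃ ρ, a ∈ CA p → Acts ψ (g⁻¹ * ev ψ a * g) ρ := fun a => by
    by_cases ha : a ∈ CA p
    · exact (K.act _ (comm_t B hp gt ha)).imp fun _ h _ => h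
    · exact ⟨1, fun h => (ha h).elim⟩
  have h2 : ∀ b : Perm α, ∃ ρ, b ∈ CA p' → Acts ψ (g⁻¹⁻¹ * ev ψ b * g⁻¹) ρ := fun b => by
    by_cases hb : b ∈ CA p'
    · exact (K.act _ (comm_t B hp' gt' hb)).imp fun _ h _ => h
    · exact ⟨1, fun h => (hb h).elim⟩
  choose φ a1 using h1
  choose φ' a2 using h2
  have a2' : ∀ b ∈ CA p', Acts ψ (g * ev ψ b * g⁻¹) (φ' b) := fun b hb => by
    simpa only [inv_inv] using a2 b hb
  refine ⟨p', φ, φ', ⟨tw1 B K p2 p1 hp hp' gt gp a1 a2', tw1 B K p2' (p1' p1) hp' hp gt'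
    (by rw [← gp]; group) a2 fun a ha => by rw [inv_inv]; exact a1 a ha⟩, gt,
    by rw [← gp]; group, a1, a2', fun a ha h3 h4 h5 => ?_, p', p2', hp', rfl, conj_of _ gt'⟩
  rcases cases_of B K hp hp' gt gp a1 a2' ha h3 h4 with h | h
  · exact h.1
  · exact (p1 (mul_eq_right.1 (h.2.2.symm.trans h5))).elim

end Cfsg.Agent.H86.An
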