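import Cfsg.Agent.H21.DSDefs

/-!
# DS-KER: the trace form on the centraliser of the generic element has rank one
-/

set_option autoImplicit false
set_option linter.unusedSectionVars false

namespace Cfsg.Agent.H86.DsKer

open Cfsg Matrix Cfsg.Agent.H21.DS

universe u

section gen
variable {k : Type} [Field k] {K : Type u} [Field K] [Algebra k K] {n : ℕ}

/-- base change of matrices -/
def io (K : Type u) [Field K] [Algebra k K] : Mat n k →+* Mat n K := (algebraMap k K).mapMatrix

theorem io_apply (E : Mat n k) (i l : Fin n) : io K E i l = algebraMap k K (E i l) := rfl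

theorem io_smul (c : k) (E : Mat n k) : io K (c • E) = algebraMap k K c • io K E := by
  ext i l; simp [io_apply]

theorem io_trace (E : Mat n k) : (io K E).trace = algebraMap k K E.trace := by
  simp [Matrix.trace, io_apply]

theorem ind {P : Mat n K → Prop} (h0 : P 0) (ha : ∀ S T, P S → P T → P (S + T))
    (h : ∀ (f : K) (E : Mat n k), P (f • io K E)) (T : Mat n K) : P T :=
  Matrix.induction_on' T h0 ha fun i l x => by
    have e : single i l x = x • io K (single i l (1 : k)) := by
      ext a b; simp [Matrix.single_apply, io_apply, apply_ite (algebraMap k K)]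
    rw [e]; exact h _ _

/-- the twist along `θ` -/
def phi (θ : K →+* Mat n K) : Mat n K →+ Mat n K where
  toFun T := ∑ i, ∑ l, single i l 1 * θ (T i l)
  map_zero' := by simp
  map_add' S T := by simp [mul_add, Finset.sum_add_distrib]

theorem phi_io {θ : K →+* Mat n K} (hc : ∀ c : k, θ (algebraMap k K c) = algebraMap k K c • 1)
    (f : K) (E : Mat n k) : phi θ (f • io K E) = io K E * θ f := by
  show ∑ i, ∑ l, single i l 1 * θ ((f • io K E) i l) = _
  conv_rhs => rw [matrix_eq_sum_single (io K E)]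
  simp only [Finset.sum_mul]
  refine Finset.sum_congr rfl fun i _ => Finset.sum_congr rfl fun l _ => ?_
  have e : (f • io K E) i l = algebraMap k K (E i l) * f := by simp [mul_comm, io_apply]
  rw [e, map_mul, hc, ← mul_assoc, mul_smul_comm, mul_one, smul_single, smul_eq_mul, mul_one]
  rfl

theorem phi_smul {θ : K →+* Mat n K} (hc : ∀ c : k, θ (algebraMap k K c) = algebraMap k K c • 1)
    (f : K) : ∀ T : Mat n K, phi θ (f • T) = phi θ T * θ f := by
  refine ind (k := k) (by simp) (fun S T h1 h2 => ?_) fun f' E => ?_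
  · rw [smul_add, map_add, map_add, h1, h2, add_mul]
  · rw [smul_smul, phi_io hc, phi_io hc, mul_comm f, map_mul, mul_assoc]

theorem phi_conj {θ : K →+* Mat n K} (hc : ∀ c : k, θ (algebraMap k K c) = algebraMap k K c • 1)
    (a b : Mat n k) (hb : ∀ f, θ f * io K b = io K b * θ f) : ∀ T : Mat n K,
    phi θ (io K a * T * io K b) = io K a * phi θ T * io K b := by
  refine ind (k := k) (by simp) (fun S T h1 h2 => ?_) fun f E => ?_
  · rw [mul_add, add_mul, map_add, map_add, h1, h2, mul_add, add_mul]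
  · rw [mul_smul_comm, smul_mul_assoc, ← map_mul, ← map_mul, phi_io hc, phi_io hc, map_mul,
      map_mul, mul_assoc, mul_assoc, mul_assoc, mul_assoc, hb]

variable {A : Type u} [CommGroup A] [Fintype A]

/-- the conjugation form of the generic element -/
def Del (y : A → K) (ρ : A →* Mat n k) (T : Mat n K) : Mat n K :=
  ∑ g, y g • (io K (ρ g) * T * io K (ρ g⁻¹) - T)

/-- step (1) -/
theorem step1 (hD : DerStmt.{u}) (p : ℕ) [Fact p.Prime] [CharP K p] (hA : IsPGroup p A)
    {ρ : A →* Mat n k} {X : Type u} [Fintype X] [MulAction A X] {r s : X → Mat n k}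
    (fr : Frame ρ r s) {y : A → K} (hy : ∀ τ : A →* Multiplicative (ZMod p), τ ≠ 1 →
      ∑ g, y g * ZMod.castHom dvd_rfl K (τ g).toAdd ≠ 0) {T : Mat n K} (hT : Del y ρ T = 0) :
    ∃ (c : K) (F : Mat n K), T = c • 1 + Del y ρ F := by
  have ex : ∀ T : Mat n K, ∑ x, (T * io K (s x)).trace • io K (r x) = T := by
    refine ind (k := k) (by simp) (fun S T h1 h2 => ?_) fun f E => ?_
    · simp only [add_mul, trace_add, add_smul, Finset.sum_add_distrib, h1, h2]
    · conv_rhs => rw [← fr.exp E, map_sum, Finset.smul_sum]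
      refine Finset.sum_congr rfl fun x _ => ?_
      rw [smul_mul_assoc, trace_smul, ← map_mul, io_trace, io_smul, smul_smul, smul_eq_mul]
  obtain ⟨f', hf⟩ := hD K p A hA X y hy (fun x => (T * io K (s x)).trace) fun x => by
    have := congrArg (fun S => (S * io K (s x)).trace) hT
    simp only [Del, Finset.sum_mul, trace_sum, zero_mul, trace_zero] at this
    rw [← this]
    refine Finset.sum_congr rfl fun g _ => ?_
    rw [smul_mul_assoc, trace_smul, smul_eq_mul, sub_mul, trace_sub, fr.hs, inv_inv, map_mul,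
      map_mul, ← mul_assoc, ← mul_assoc, trace_mul_comm _ (io K (ρ g)), ← mul_assoc, ← mul_assoc]
  have e : Del y ρ (∑ x, f' x • io K (r x)) =
      ∑ x, (∑ g, y g * (f' (g⁻¹ • x) - f' x)) • io K (r x) := by
    simp only [Finset.sum_smul]
    rw [Finset.sum_comm]
    refine Finset.sum_congr rfl fun g _ => ?_
    simp only [mul_smul, sub_smul, ← Finset.smul_sum, Finset.sum_sub_distrib]
    congr 2
    rw [Finset.mul_sum, Finset.sum_mul]
    refine Fintype.sum_equiv (MulAction.toPerm g) _ _ fun x => ?_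
    rw [MulAction.toPerm_apply, inv_smul_smul, fr.hr, map_mul, map_mul, mul_smul_comm,
      smul_mul_assoc]
  have m : T - Del y ρ (∑ x, f' x • io K (r x)) ∈ K ∙ (1 : Mat n K) := by
    rw [e]
    nth_rewrite 1 [← ex T]
    rw [← Finset.sum_sub_distrib]
    refine Submodule.sum_mem _ fun x _ => ?_
    by_cases hx : ∀ g : A, g • x = x
    · obtain ⟨c, hc⟩ := fr.fix x hx
      rw [← sub_smul, hc, io_smul, map_one]
      exact Submodule.smul_mem _ _ (Submodule.smul_mem _ _ (Submodule.mem_span_singleton_self _))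
    · rw [← hf x hx, sub_self]
      exact Submodule.zero_mem _
  obtain ⟨c, hc⟩ := Submodule.mem_span_singleton.1 m
  exact ⟨c, _, by rw [hc, sub_add_cancel]⟩

/-- the augmentation -/
noncomputable abbrev eps (K : Type u) [Field K] (A : Type u) [CommGroup A] :
    MonoidAlgebra K A →ₐ[K] K := MonoidAlgebra.lift K K A 1

theorem nil (p : ℕ) [Fact p.Prime] [CharP K p] (hA : IsPGroup p A) (x : MonoidAlgebra K A) :
    IsNilpotent (x - algebraMap K _ (eps K A x)) := by
  have : CharP (MonoidAlgebra K A) p :=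
    charP_of_injective_algebraMap (algebraMap K (MonoidAlgebra K A)).injective p
  obtain ⟨e, he⟩ := hA.exists_card_eq
  have h : iterateFrobenius (MonoidAlgebra K A) p e = (iterateFrobenius (MonoidAlgebra K A) p e).comp
      ((algebraMap K _).comp (eps K A : MonoidAlgebra K A →+* K)) := by
    refine MonoidAlgebra.ringHom_ext (fun b => ?_) fun a => ?_
    · simp
    · simp [iterateFrobenius_def, MonoidAlgebra.single_pow, ← he]
  refine ⟨p ^ e, ?_⟩
  rw [← iterateFrobenius_def, map_sub, sub_eq_zero]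
  exact RingHom.congr_fun h x

end gen

section tw
variable {k : Type} [Field k] {A : Type u} [CommGroup A] [Fintype A] {n : ℕ}

/-- the variables -/
noncomputable abbrev yy (k : Type) [Field k] {A : Type u} (g : A) : Kf k A :=
  algebraMap (MvPolynomial A k) (Kf k A) (MvPolynomial.X g)

theorem al_C (c : k) :
    algebraMap (MvPolynomial A k) (Kf k A) (MvPolynomial.C c) = algebraMap k (Kf k A) c :=
  (IsScalarTower.algebraMap_apply k (MvPolynomial A k) (Kf k A) c).symm

theorem kf_ext {S : Type*} [Semiring S] {f g : Kf k A →+* S}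
    (h1 : ∀ c : k, f (algebraMap k _ c) = g (algebraMap k _ c))
    (h2 : ∀ a, f (yy k a) = g (yy k a)) : f = g :=
  IsLocalization.ringHom_ext (nonZeroDivisors (MvPolynomial A k))
    (MvPolynomial.ringHom_ext (fun c => by simpa [al_C] using h1 c) h2)

/-- the twist of the variables -/
structure Tw (j : A → A) (ψ : Kf k A →+* MonoidAlgebra (Kf k A) A) : Prop where
  c : ∀ c : k, ψ (algebraMap k _ c) = algebraMap (Kf k A) _ (algebraMap k _ c)
  y : ∀ g, ψ (yy k g) = MonoidAlgebra.single (j g) (yy k g)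

theorem exists_tw (H : ∀ x : MonoidAlgebra (Kf k A) A,
    IsNilpotent (x - algebraMap (Kf k A) _ (eps _ A x))) (j : A → A) :
    ∃ ψ : Kf k A →+* MonoidAlgebra (Kf k A) A, Tw j ψ := by
  let ψ : MvPolynomial A k →+* MonoidAlgebra (Kf k A) A := MvPolynomial.eval₂Hom
    ((algebraMap (Kf k A) _).comp (algebraMap k _)) fun g => MonoidAlgebra.single (j g) (yy k g)
  have e : (eps (Kf k A) A : MonoidAlgebra (Kf k A) A →+* Kf k A).comp ψ = algebraMap _ _ :=
    MvPolynomial.ringHom_ext (fun c => by simp [ψ, al_C]) fun g => by simp [ψ]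
  have hu : ∀ f : nonZeroDivisors (MvPolynomial A k), IsUnit (ψ f) := fun f => by
    have h1 : IsUnit (algebraMap (Kf k A) (MonoidAlgebra (Kf k A) A) (eps _ A (ψ f))) := by
      refine IsUnit.map _ ?_
      rw [show eps _ A (ψ f) = _ from RingHom.congr_fun e f]
      exact IsLocalization.map_units _ f
    simpa using (H (ψ f)).isUnit_add_right_of_commute h1 (Commute.all _ _)
  refine ⟨IsLocalization.lift hu, fun c => ?_, fun g => ?_⟩
  · rw [← al_C, IsLocalization.lift_eq]; simp [ψ, al_C]
  · rw [IsLocalization.lift_eq]; simp [ψ]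

/-- the representation of the group algebra -/
noncomputable abbrev lam (ρ : A →* Mat n k) :
    MonoidAlgebra (Kf k A) A →ₐ[Kf k A] Mat n (Kf k A) :=
  MonoidAlgebra.lift _ _ A ((io (k := k) (n := n) (Kf k A)).toMonoidHom.comp ρ)

/-- the twisted scalars -/
noncomputable abbrev th (ρ : A →* Mat n k) (ψ : Kf k A →+* MonoidAlgebra (Kf k A) A) :
    Kf k A →+* Mat n (Kf k A) := (lam ρ : _ →+* _).comp ψ

variable {ρ : A →* Mat n k} {j j' : A → A} {ψ ψ' : Kf k A →+* MonoidAlgebra (Kf k A) A}

theorem lam_single (a : A) (c : Kf k A) :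
    lam ρ (MonoidAlgebra.single a c) = c • io (Kf k A) (ρ a) := by simp

theorem Tw.hc (h : Tw j ψ) (c : k) : th ρ ψ (algebraMap k _ c) = algebraMap k (Kf k A) c • 1 := by
  show lam ρ (ψ _) = _
  rw [h.c, AlgHom.commutes, Algebra.algebraMap_eq_smul_one]

theorem lam_comm (x : MonoidAlgebra (Kf k A) A) (a : A) :
    lam ρ x * io (Kf k A) (ρ a) = io (Kf k A) (ρ a) * lam ρ x := by
  rw [← one_smul (Kf k A) (io (Kf k A) (ρ a)), ← lam_single, ← map_mul, ← map_mul, mul_comm]

theorem Tw.eps (h : Tw j ψ) (c : Kf k A) : eps _ A (ψ c) = c :=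
  RingHom.congr_fun (kf_ext (f := (DsKer.eps (Kf k A) A : _ →+* Kf k A).comp ψ) (g := RingHom.id _)
    (fun c => by simp [h.c]) fun a => by simp [h.y]) c

theorem Tw.inv (h : Tw j ψ) (h' : Tw j' ψ') (e : ∀ g, j g * j' g = 1) :
    ∀ T : Mat n (Kf k A), phi (th ρ ψ) (phi (th ρ ψ') T) = T := by
  let Ψ := MonoidAlgebra.liftNCRingHom ψ (MonoidAlgebra.of (Kf k A) A) fun _ _ => Commute.all _ _
  have e1 : Ψ.comp ψ' = algebraMap _ _ := kf_ext
    (fun c => by simp [Ψ, h'.c, h.c, ← MonoidAlgebra.one_def])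
    fun a => by simp [Ψ, h'.y, h.y, MonoidAlgebra.single_mul_single, e]
  have e2 : ∀ (E : Mat n k) (x : MonoidAlgebra (Kf k A) A),
      phi (th ρ ψ) (io _ E * lam ρ x) = io _ E * lam ρ (Ψ x) := fun E x => by
    induction x using MonoidAlgebra.induction_linear with
    | zero => simp
    | add x y h1 h2 => simp only [map_add, mul_add, h1, h2]
    | single a c =>
      rw [lam_single, mul_smul_comm, ← map_mul, phi_io h.hc, MonoidAlgebra.liftNCRingHom_single,
        map_mul, map_mul, MonoidAlgebra.of_apply, lam_single, one_smul, lam_comm, mul_assoc]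
      rfl
  refine ind (k := k) (by simp) (fun S T h1 h2 => ?_) fun f E => ?_
  · rw [map_add, map_add, h1, h2]
  · rw [phi_io h'.hc]
    refine (e2 E (ψ' f)).trans ?_
    rw [show Ψ (ψ' f) = _ from RingHom.congr_fun e1 f, AlgHom.commutes,
      Algebra.algebraMap_eq_smul_one, mul_smul_comm, mul_one]

theorem th_eq : Th ρ = ∑ g, yy k g • (io (Kf k A) (ρ g) - 1) := rfl

theorem Tw.del (h : Tw id ψ) (T : Mat n (Kf k A)) :
    phi (th ρ ψ) (Del (yy k) ρ T) = Th ρ * phi (th ρ ψ) T - phi (th ρ ψ) T * Th ρ := by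
  rw [th_eq, Del, map_sum, Finset.sum_mul, Finset.mul_sum, ← Finset.sum_sub_distrib]
  refine Finset.sum_congr rfl fun g _ => ?_
  have e : th ρ ψ (yy k g) = yy k g • io (Kf k A) (ρ g) := by
    show lam ρ (ψ _) = _
    rw [h.y, lam_single, id]
  rw [phi_smul h.hc, map_sub, phi_conj h.hc _ _ fun f => lam_comm (ψ f) g⁻¹, e, mul_smul_comm,
    mul_smul_comm, smul_mul_assoc, ← smul_sub, sub_mul, mul_assoc, ← map_mul, ← map_mul,
    inv_mul_cancel, map_one, map_one, mul_one, sub_mul, mul_sub, one_mul, mul_one]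
  congr 1
  abel

theorem lam_Th (x : MonoidAlgebra (Kf k A) A) : Commute (lam ρ x) (Th ρ) := by
  rw [th_eq]
  exact Commute.sum_right _ _ _ fun g _ =>
    (Commute.sub_right (lam_comm x g) (Commute.one_right _)).smul_right _

theorem hy (p : ℕ) [Fact p.Prime] [CharP k p] [CharP (Kf k A) p]
    (τ : A →* Multiplicative (ZMod p)) (hτ : τ ≠ 1) :
    ∑ g, yy k g * ZMod.castHom dvd_rfl (Kf k A) (τ g).toAdd ≠ 0 := by
  classical
  intro h
  refine hτ (MonoidHom.ext fun a => ?_)
  have e : ZMod.castHom dvd_rfl (Kf k A) = (algebraMap k _).comp (ZMod.castHom dvd_rfl k) :=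
    RingHom.ext_zmod _ _
  have h1 : (∑ g, MvPolynomial.X g * MvPolynomial.C (ZMod.castHom dvd_rfl k (τ g).toAdd) :
      MvPolynomial A k) = 0 := by
    refine IsFractionRing.injective _ (Kf k A) ?_
    rw [map_zero, ← h, map_sum]
    exact Finset.sum_congr rfl fun g _ => by rw [map_mul, al_C, e]; rfl
  have h2 := congrArg (MvPolynomial.eval (Pi.single a (1 : k))) h1
  simp only [map_sum, map_mul, MvPolynomial.eval_X, MvPolynomial.eval_C, map_zero,
    Pi.single_apply, ite_mul, one_mul, zero_mul, Finset.sum_ite_eq', Finset.mem_univ,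
    if_true] at h2
  exact toAdd_eq_zero.1 ((map_eq_zero _).1 h2)

end tw

theorem ker (hD : DerStmt.{u}) : KerStmt.{u} := by
  intro k _ p _ _ A _ _ hA n ρ X _ _ r s fr
  have : CharP (Kf k A) p := charP_of_injective_algebraMap (algebraMap k (Kf k A)).injective p
  have H := nil (K := Kf k A) p hA
  obtain ⟨ψ, h⟩ := exists_tw H id
  obtain ⟨ψ', h'⟩ := exists_tw H fun g => g⁻¹
  have tr : ∀ c, (th ρ ψ c).trace = n * c := fun c => by
    have h1 := (Matrix.isNilpotent_trace_of_isNilpotent ((H (ψ c)).map (lam ρ))).eq_zero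
    rw [map_sub, h.eps, AlgHom.commutes, Algebra.algebraMap_eq_smul_one, trace_sub, trace_smul,
      trace_one, Fintype.card_fin, sub_eq_zero, smul_eq_mul, mul_comm] at h1
    exact h1
  have dec : ∀ E, Commute E (Th ρ) → ∃ c F, E = th ρ ψ c + (Th ρ * F - F * Th ρ) := fun E hE => by
    have e1 := h.inv (ρ := ρ) h' (fun g => mul_inv_cancel g) E
    have e2 : Del (yy k) ρ (phi (th ρ ψ') E) = 0 := by
      rw [← h'.inv (ρ := ρ) h (fun g => inv_mul_cancel g) (Del _ _ _), h.del, e1, hE.eq, sub_self,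
        map_zero]
    obtain ⟨c, F, e3⟩ := step1 hD p hA fr (y := yy k) (fun τ hτ => hy p τ hτ) e2
    refine ⟨c, phi (th ρ ψ) F, ?_⟩
    have e4 := phi_io (n := n) (h.hc (ρ := ρ)) c 1
    rw [map_one, one_mul] at e4
    rw [← e1, e3, map_add, h.del, e4]
  have z : ∀ E F, Commute E (Th ρ) → (E * (Th ρ * F - F * Th ρ)).trace = 0 := fun E F hE => by
    rw [mul_sub, trace_sub, ← mul_assoc, ← mul_assoc, trace_mul_comm (E * F), ← mul_assoc, hE.eq,
      sub_self]
  have t2 : ∀ E c F, Commute E (Th ρ) →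
      (E * (th ρ ψ c + (Th ρ * F - F * Th ρ))).trace = (E * th ρ ψ c).trace := fun E c F hE => by
    rw [mul_add, trace_add, z E F hE, add_zero]
  intro E E' hE hE'
  obtain ⟨c, F, e⟩ := dec E hE
  obtain ⟨c', F', e'⟩ := dec E' hE'
  have t1 : ∀ c F, (th ρ ψ c + (Th ρ * F - F * Th ρ)).trace = n * c := fun c F => by
    have := t2 1 c F (Commute.one_left _)
    rwa [one_mul, one_mul, tr] at this
  rw [e', t2 E c' F' hE, t1, trace_mul_comm, e, t2 (th ρ ψ c') c F (lam_Th _), t1, ← map_mul, tr]
  ring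

theorem eqns : True := by
  have := @phi.eq_1.{0}
  have := @io.eq_1.{0}
  have := @Del.eq_1.{0}
  trivial

end Cfsg.Agent.H86.DsKer
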