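import Mathlib
import Cfsg.Agent.H6.E82Defs

/-! Project E82, piece Z9: rational points of order dividing nine in the torus. -/

set_option autoImplicit false
set_option maxRecDepth 100000

namespace Cfsg.Agent.H86.E82Z9

open Cfsg.Lie Cfsg.Agent.H6.E82 H29 H34

/-- The table of roots modulo `9`. -/
noncomputable def tn9 : List RN := tabE8.map (rn 9 tabE8)

theorem tabN9 : TabN chevE8.rank 9 tabE8 carE8 tn9 cn8 un8 :=
  ⟨by decide, rfl, tabN8.2.2.1, tabN8.2.2.2⟩

theorem alc9 : allAlc [2, 3, 4, 6, 5, 4, 3, 2] 9 (fun a => Bool.rec true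
    (fN (zN 9 tn9 a) fun z => !(Nat.beq z 30 || Nat.beq z 24 || Nat.beq z 18))
    (jointB tn9 9 2 a 1 0 [])) = true := by
  decide +kernel

theorem z9 : Z9Stmt := by
  intro f hf w _ h1
  obtain ⟨v, hv, a, h2, -, h4⟩ := hf.alc tabOKE8 (s := 9) (by decide) (by decide) _ thE8 alc9
  rw [ratB_of tabOKE8 tabN9 dvd_rfl h4 (hf.comp hv) (w := v⁻¹ * w * v) fun r => by simp [h1],
    h4.zN_eq tabOKE8 tabN9 dvd_rfl (hf.comp hv), ← z0_congr v fun _ => Iff.rfl] at h2
  have h3 := (fN_eq _ _).symm.trans h2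
  refine ⟨fun h => ?_, fun h => ?_, fun h => ?_⟩ <;> rw [h] at h3 <;> exact absurd h3 (by decide)

theorem eqns : True := by
  have := @tn9.eq_1
  trivial

end Cfsg.Agent.H86.E82Z9
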