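import Cfsg.Agent.H41.JU3Defs

/-! The group `3^{1+2}:8` has order `216`. -/

set_option autoImplicit false

namespace Cfsg.Agent.H41.JU3

open Subgroup Cfsg.Agent.H97.JM
open scoped Pointwise

universe u

theorem pCB : CB.{u} := by
  intro G _ _ x y v w h hR
  have hx : x ∈ RR x y v := subset_closure (by simp)
  have hy : y ∈ RR x y v := subset_closure (by simp)
  have hv : v ∈ RR x y v := subset_closure (by simp)
  have hw : w ∈ normalizer ((RR x y v : Subgroup G) : Set G) := by
    refine mem_normalizer_fintype (S := ((RR x y v : Subgroup G) : Set G)) fun g hg => ?_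
    have : RR x y v ≤ (RR x y v).comap (MulAut.conj w).toMonoidHom := by
      refine (closure_le _).mpr ?_
      rintro g (rfl | rfl | rfl)
      · change w * g * w⁻¹ ∈ RR g y v
        rw [h.wx, mul_inv_cancel_right]
        exact pow_mem hx 2
      · change w * g * w⁻¹ ∈ RR x g v
        rw [h.wy, mul_inv_cancel_right]
        exact hv
      · change w * g * w⁻¹ ∈ RR x y g
        rw [h.wv, mul_inv_cancel_right]
        exact mul_mem (mul_mem hy hv) (pow_mem hx 2)
    exact this hg
  have hle : RR x y v ≤ BB x y v w := closure_mono (by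
    rintro g (rfl | rfl | rfl) <;> simp)
  have hwB : w ∈ BB x y v w := subset_closure (by simp)
  have hB : BB x y v w = zpowers w ⊔ RR x y v := by
    refine le_antisymm ((closure_le _).mpr ?_) (sup_le (zpowers_le.mpr hwB) hle)
    rintro g (rfl | rfl | rfl | rfl)
    exacts [mem_sup_right hx, mem_sup_right hy, mem_sup_right hv, mem_sup_left (mem_zpowers _)]
  have : Fact (Nat.Prime 2) := ⟨Nat.prime_two⟩
  have ow : orderOf w = 8 :=
    orderOf_eq_prime_pow (p := 2) (n := 2) (x := w) h.w4 h.w8
  refine ⟨hle, ?_, ?_⟩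
  · rw [hB]
    exact sup_le (zpowers_le.mpr hw) le_normalizer
  · have h1 : 27 ∣ Nat.card (BB x y v w) := hR ▸ card_dvd_of_le hle
    have h2 : 8 ∣ Nat.card (BB x y v w) := ow ▸ (BB x y v w).orderOf_dvd_natCard hwB
    have h3 : Nat.card (BB x y v w) ≤ 8 * 27 := by
      have e : Nat.card (zpowers w ⊔ RR x y v : Subgroup G) =
          Nat.card (((zpowers w : Subgroup G) : Set G) * (RR x y v : Set G) : Set G) := by
        rw [← coe_mul_of_left_le_normalizer_right _ _ (zpowers_le.mpr hw)]
        rfl
      rw [hB, e]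
      refine Set.natCard_mul_le.trans (le_of_eq ?_)
      rw [← ow, ← hR, ← Nat.card_zpowers]
      rfl
    have h4 : 0 < Nat.card (BB x y v w) := Nat.card_pos
    omega

end Cfsg.Agent.H41.JU3
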