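import Cfsg.Agent.H45.OnDefs

/-! The stabilizers in the components have even index. -/

set_option autoImplicit false

namespace Cfsg.Agent.H86.OnP

open Cfsg.Agent.H45.On

universe u v

theorem p3 (hSim : SimStmt.{u}) (hSy : SyStmt.{u}) : P3Stmt.{u, v} := by
  intro G Ω _ _ _ _ S T hSS hAB x y M hM hxy
  by_contra hodd
  rw [Nat.not_even_iff_odd] at hodd
  obtain ⟨t, htM, ht, hty⟩ : ∃ t ∈ M, Inv t ∧ t • y ≠ y := by
    by_contra h
    push Not at h
    exact hxy (T.d0 x y M hM fun m hm =>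
      (hSim M (S.simple hM) (S.nab hM)).2.2.1 (MulAction.stabilizer G y) h hm).symm
  obtain ⟨e, he, hei, hc⟩ := hSS x y M t hM hxy htM hty
  have hP : IsPGroup 2 (Subgroup.zpowers e) := by
    have : Fact (Nat.Prime 2) := ⟨Nat.prime_two⟩
    refine IsPGroup.of_card (n := 1) ?_
    rw [Nat.card_zpowers, pow_one]
    exact orderOf_eq_prime (by rw [sq]; exact hei.1) hei.2
  obtain ⟨Q, heQ, hQ, hQp, hQo⟩ := (hSy (St M y) _ (Subgroup.zpowers_le.mpr he) hP).1
  have hQL : Q ≤ St M y ⊓ MulAction.stabilizer G (t • y) := fun h hh =>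
    ⟨hQ hh, (hc h (hQ hh)).mp (hAB x y M hM hxy Q hQ hQp h hh e (heQ (Subgroup.mem_zpowers e)))⟩
  have htt : t • t • y = y := by rw [← mul_smul, ht.1, one_smul]
  let X : Subgroup G :=
    { carrier := {m | m ∈ M ∧ ((m • y = y ∧ m • t • y = t • y) ∨ (m • y = t • y ∧ m • t • y = y))}
      one_mem' := ⟨M.one_mem, Or.inl ⟨one_smul _ _, one_smul _ _⟩⟩
      mul_mem' := by
        rintro a b ⟨ha, ha'⟩ ⟨hb, hb'⟩
        refine ⟨M.mul_mem ha hb, ?_⟩
        rw [mul_smul, mul_smul]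
        rcases hb' with ⟨h1, h2⟩ | ⟨h1, h2⟩ <;> rw [h1, h2]
        · exact ha'
        · exact ha'.symm.imp And.symm And.symm
      inv_mem' := by
        rintro a ⟨ha, ha'⟩
        refine ⟨M.inv_mem ha, ?_⟩
        simp only [inv_smul_eq_iff]
        rcases ha' with ⟨h1, h2⟩ | ⟨h1, h2⟩
        · exact Or.inl ⟨h1.symm, h2.symm⟩
        · exact Or.inr ⟨h2.symm, h1.symm⟩ }
  have hLX : St M y ⊓ MulAction.stabilizer G (t • y) ≤ X := fun m hm =>
    ⟨hm.1.1, Or.inl ⟨hm.1.2, hm.2⟩⟩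
  have hXM : X ≤ M := fun m hm => hm.1
  have h2 : (St M y ⊓ MulAction.stabilizer G (t • y)).relIndex X = 2 := by
    refine Subgroup.relIndex_eq_two_iff.mpr ⟨t, ⟨htM, Or.inr ⟨rfl, htt⟩⟩, ?_⟩
    rintro b ⟨hb, ⟨h1, h2⟩ | ⟨h1, h2⟩⟩
    · refine Or.inr ⟨⟨⟨hb, h1⟩, h2⟩, fun h => hty ?_⟩
      have h3 : (b * t) • y = y := h.1.2
      rwa [mul_smul, h2] at h3
    · refine Or.inl ⟨⟨⟨M.mul_mem hb htM, ?_⟩, ?_⟩, fun h => hty (h1.symm.trans h.1.2)⟩
      · change (b * t) • y = y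
        rw [mul_smul, h2]
      · change (b * t) • t • y = t • y
        rw [mul_smul, htt, h1]
  have e1 := Subgroup.relIndex_mul_relIndex Q (St M y) M hQ inf_le_left
  have e2 := Subgroup.relIndex_mul_relIndex Q _ X hQL hLX
  have e3 := Subgroup.relIndex_mul_relIndex Q X M (hQL.trans hLX) hXM
  have ho := hQo.mul hodd
  rw [e1, ← e3, ← e2, h2] at ho
  exact Nat.not_even_iff_odd.mpr ho ((even_two.mul_left _).mul_right _)

end Cfsg.Agent.H86.OnP
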