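import Cfsg.Agent.H35.RfQ
import Cfsg.Agent.H31.HermCount
import Cfsg.Agent.H28.Act

/-! Project RF, piece GU. -/

set_option autoImplicit false
set_option linter.unusedVariables false
set_option linter.style.haveILetI false

namespace Cfsg.Agent.H86.RfGu

open Cfsg Subgroup Cfsg.Agent.H28 Cfsg.Agent.H31

universe u

/-- the module structure over the field with four elements -/
@[reducible] def mod4 {V : Type u} [AddCommGroup V] [Module (ZMod 2) V] (R : V →+ V)
    (hR : ∀ v, R (R v) = v + R v) : Module F4 V :=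
  letI : SMul F4 V := ⟨fun c v => c.re • v + c.im • R v⟩
  Module.ofMinimalAxioms
    (by
      intro c x y
      change c.re • (x + y) + c.im • R (x + y) = (c.re • x + c.im • R x) + (c.re • y + c.im • R y)
      rw [map_add]; module)
    (by
      intro c d x
      change (c + d).re • x + (c + d).im • R x = (c.re • x + c.im • R x) + (d.re • x + d.im • R x)
      simp only [QuadraticAlgebra.re_add, QuadraticAlgebra.im_add]; module)
    (by
      intro c d x
      change (c * d).re • x + (c * d).im • R x =
        c.re • (d.re • x + d.im • R x) + c.im • R (d.re • x + d.im • R x)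
      rw [map_add, ZMod.map_smul, ZMod.map_smul, hR]
      simp only [QuadraticAlgebra.re_mul, QuadraticAlgebra.im_mul]; module)
    (by
      intro x
      change (1 : ZMod 2) • x + (0 : ZMod 2) • R x = x
      rw [one_smul, zero_smul, add_zero])

theorem core {V : Type u} [AddCommGroup V] [Finite V] [Module (ZMod 2) V]
    (cV : Nat.card V = 2 ^ 12) (R : V →+ V) (hR : ∀ v, R (R v) = v + R v)
    (β : V → V → ZMod 2) (hadd : ∀ a a' b, β (a + a') b = β a b + β a' b)
    (hsymm : ∀ a b, β a b = β b a) (hinv : ∀ a b, β (R a) (R b) = β a b)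
    (hnd : ∀ a, (∀ b, β a b = 0) → a = 0)
    (Y : Type u) [Group Y] (act : Y → V →+ V) (hmul : ∀ y y' v, act (y * y') v = act y (act y' v))
    (hone : ∀ v, act 1 v = v) (hinj : ∀ y, (∀ v, act y v = v) → y = 1)
    (hcomm : ∀ y v, act y (R v) = R (act y v)) (hβ : ∀ y a b, β (act y a) (act y b) = β a b) :
    Nat.card Y ∣ 2 ^ 15 * 3 ^ 8 * 5 * 7 * 11 := by
  letI : Module F4 V := mod4 R hR
  have hs : ∀ (c : F4) (v : V), c • v = c.re • v + c.im • R v := fun _ _ => rfl
  have hsm : ∀ (c : ZMod 2) a b, β (c • a) b = c * β a b := fun c a b =>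
    ZMod.map_smul (AddMonoidHom.mk' (fun a => β a b) (fun a a' => hadd a a' b)) c a
  have hadd' : ∀ a b b', β a (b + b') = β a b + β a b' := by
    intro a b b'; rw [hsymm, hadd, hsymm b, hsymm b']
  have hsm' : ∀ (c : ZMod 2) a b, β a (c • b) = c * β a b := by
    intro c a b; rw [hsymm, hsm, hsymm]
  have h2 : ∀ x : ZMod 2, x + x = 0 := by decide
  have hRl : ∀ a b, β (R a) b = β a (R b) + β a b := by
    intro a b
    have h1 := hinv a (R b)
    rw [hR, hadd', hinv] at h1
    rw [← h1, add_assoc, h2, add_zero]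
  let H : V → V → F4 := fun x y => ⟨β x (R y) + β x y, β x y⟩
  let σ : F4 →+* F4 := starRingEnd F4
  have hσ : ∀ x, σ x = x ^ 2 := by
    intro x; change star x = _; revert x; decide
  have hσ' : ∀ x : F4, σ x = ⟨x.re + x.im, x.im⟩ := by
    intro x; change star x = _; revert x; decide
  let B : V →ₛₗ[σ] V →ₗ[F4] F4 := LinearMap.mk₂'ₛₗ σ (RingHom.id F4) H
    (by
      intro a a' b
      ext <;> simp [H, hadd]
      ring)
    (by
      intro c a b
      rw [hs, hσ', smul_eq_mul]
      simp only [H, hadd, hsm, hRl, hR, hadd']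
      generalize β a b = p
      generalize β a (R b) = q
      revert c p q
      decide)
    (by
      intro a b b'
      ext <;> simp [H, hadd']
      ring)
    (by
      intro c a b
      rw [hs, smul_eq_mul, RingHom.id_apply]
      simp only [H, map_add, ZMod.map_smul, hsm', hR, hadd']
      generalize β a b = p
      generalize β a (R b) = q
      revert c p q
      decide)
  have hB : ∀ x y, B x y = ⟨β x (R y) + β x y, β x y⟩ := fun _ _ => rfl
  have hH : IsHerm B := by
    refine ⟨⟨IsInvol.of_ne ?_ ?_, ?_⟩, ?_⟩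
    · intro h
      have := hσ' ⟨0, 1⟩
      rw [h] at this
      revert this
      decide
    · intro a; exact star_star a
    · intro x y
      rw [hB, hB, hσ', hsymm y (R x), hRl, hsymm y x]
    · intro x hx
      refine hnd x fun y => ?_
      have := congrArg QuadraticAlgebra.im (hx y)
      rw [hB] at this
      exact this
  haveI : Module.Finite F4 V := Module.Finite.of_finite
  have hfr : Module.finrank F4 V = 6 := by
    have h1 := Module.natCard_eq_pow_finrank (K := F4) (V := V)
    rw [cV, Nat.card_eq_fintype_card, card_F4, show (4 : ℕ) = 2 ^ 2 from rfl, ← pow_mul] at h1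
    have := Nat.pow_right_injective (le_refl 2) h1
    omega
  have hc := hH.card_isom (q := 2) card_F4 hσ
  rw [hfr, show ordGU 2 6 = 2 ^ 15 * 3 ^ 8 * 5 * 7 * 11 by decide] at hc
  rw [← hc]
  let L : Y → V ≃ₗ[F4] V := fun y =>
    { toFun := act y
      invFun := act y⁻¹
      map_add' := map_add _
      map_smul' := by
        intro c v
        rw [hs, hs, map_add, ZMod.map_smul, ZMod.map_smul, hcomm, RingHom.id_apply]
      left_inv := by intro v; rw [← hmul, inv_mul_cancel, hone]
      right_inv := by intro v; rw [← hmul, mul_inv_cancel, hone] }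
  have hL : ∀ y v, L y v = act y v := fun _ _ => rfl
  let f : Y →* isom B := MonoidHom.mk' (fun y => ⟨L y, by
      intro a b
      rw [hB, hB, hL, hL, ← hcomm, hβ, hβ]⟩) (by
    intro y y'
    apply Subtype.ext
    ext v
    exact hmul y y' v)
  refine Subgroup.card_dvd_of_injective f ((injective_iff_map_eq_one f).2 fun y hy => hinj y fun v => ?_)
  have : L y = 1 := congrArg Subtype.val hy
  rw [← hL, this]
  rfl

theorem gu : Cfsg.Agent.H35.RF.GuStmt.{u} := by
  intro X A _ _ _ _ φ s ρ hq h3 hf
  have hinv : ∀ a : A, a⁻¹ = a := fun a => inv_eq_of_mul_eq_one_right (hq.sqA a)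
  letI : CommGroup A := { ‹Group A› with
    mul_comm := fun a b => by rw [← hinv (a * b), mul_inv_rev, hinv, hinv] }
  letI : Module (ZMod 2) (Additive A) := AddCommGroup.zmodModule (n := 2) (fun x => by
    rw [two_nsmul]; exact hq.sqA x.toMul)
  have hρ : ∀ a, φ ρ (φ ρ a) = a * φ ρ a := by
    intro a
    have h1 : φ ρ (φ ρ (φ ρ a)) = a := by
      rw [← MulAut.mul_apply, ← MulAut.mul_apply, ← map_mul, ← map_mul, ← pow_three', h3, map_one,
        MulAut.one_apply]
    have h2 := hf (a * φ ρ a * φ ρ (φ ρ a)) (by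
      rw [map_mul, map_mul, h1, mul_comm, mul_assoc])
    rw [← hinv (a * φ ρ a)]
    exact eq_inv_of_mul_eq_one_right h2
  refine core (V := Additive A) hq.cA (MonoidHom.toAdditive (φ ρ).toMonoidHom) (fun v => hρ v.toMul)
    (fun a b => s (a.toMul * b.toMul) + s a.toMul + s b.toMul)
    (fun a a' b => hq.bil a.toMul a'.toMul b.toMul) (fun a b => ?_) (fun a b => ?_)
    (fun a h => hq.nd a.toMul fun b => h (Additive.ofMul b)) _
    (fun y => MonoidHom.toAdditive (φ y.1).toMonoidHom) (fun y y' v => ?_) (fun v => ?_)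
    (fun y h => ?_) (fun y v => ?_) (fun y a b => ?_)
  · rw [mul_comm a.toMul, add_right_comm]
  · change s (φ ρ a.toMul * φ ρ b.toMul) + s (φ ρ a.toMul) + s (φ ρ b.toMul) = _
    rw [← map_mul, hq.sinv, hq.sinv, hq.sinv]
  · change φ (y.1 * y'.1) v.toMul = φ y.1 (φ y'.1 v.toMul)
    rw [map_mul, MulAut.mul_apply]
  · change φ 1 v.toMul = v.toMul
    rw [map_one, MulAut.one_apply]
  · apply Subtype.ext
    apply hq.inj
    change φ y.1 = φ 1
    rw [map_one]
    ext a
    exact h (Additive.ofMul a)
  · change φ y.1 (φ ρ v.toMul) = φ ρ (φ y.1 v.toMul)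
    rw [← MulAut.mul_apply, ← MulAut.mul_apply, ← map_mul, ← map_mul,
      mem_centralizer_singleton_iff.1 y.2]
  · change s (φ y.1 a.toMul * φ y.1 b.toMul) + s (φ y.1 a.toMul) + s (φ y.1 b.toMul) = _
    rw [← map_mul, hq.sinv, hq.sinv, hq.sinv]

theorem eqns_RfGu : True := by
  have := @mod4.eq_1.{0}
  trivial

end Cfsg.Agent.H86.RfGu
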