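import Cfsg.Agent.H6.TBDefs

/-! Project TB, piece LB: lines. -/

set_option autoImplicit false
set_option linter.unusedSectionVars false

namespace Cfsg.Agent.H86.TL

open Cfsg Subgroup Cfsg.Agent.H6.TB
open Cfsg.Agent.H83 (cj mem_cj conj_mem_cj cj_mul cj_eq_self cj_eq_self_iff cj_one)
open scoped Cfsg.Agent.H63 commutatorElement

universe u

variable {G : Type u} [Group G]

theorem nmem {H : Subgroup G} {g x : G} (hg : g ∈ N[H]) (hx : x ∈ H) : g * x * g⁻¹ ∈ H :=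
  (mem_normalizer_iff.1 hg x).1 hx

/-- The elements commuting with `g` modulo `V`. -/
def cm (V : Subgroup G) (g : G) : Subgroup G where
  carrier := {l | l ∈ N[V] ∧ ⁅l, g⁆ ∈ V}
  one_mem' := ⟨one_mem _, by simp⟩
  mul_mem' := fun {x y} hx hy => ⟨mul_mem hx.1 hy.1, by
    rw [show ⁅x * y, g⁆ = x * ⁅y, g⁆ * x⁻¹ * ⁅x, g⁆ by simp only [commutatorElement_def]; group]
    exact mul_mem (nmem hx.1 hy.2) hx.2⟩
  inv_mem' := fun {x} hx => ⟨inv_mem hx.1, by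
    rw [show ⁅x⁻¹, g⁆ = x⁻¹ * ⁅x, g⁆⁻¹ * x⁻¹⁻¹ by simp only [commutatorElement_def]; group]
    exact nmem (inv_mem hx.1) (inv_mem hx.2)⟩

variable [Finite G] {Ω : Set (Subgroup G)} (h : TB Ω) (la : LA Ω) (le : H6.TB.LE Ω)
  {P Q R R' : Subgroup G}
include h

theorem one_of (e : Ad Ω P Q) {x : G} (h1 : x ∈ P) (h2 : x ∈ Q) : x = 1 :=
  mem_bot.1 (h.ti P e.l Q e.r e.ne ▸ mem_inf.2 ⟨h1, h2⟩)

theorem exO (hP : P ∈ Ω) : ∃ i ∈ om P, i ≠ 1 := by
  obtain ⟨⟨i, hi⟩, i1⟩ := ne_bot_iff_exists_ne_one.1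
    ((one_lt_card_iff_ne_bot _).1 (lt_of_lt_of_le (by norm_num) (h.four P hP)))
  exact ⟨i, hi, fun c => i1 (Subtype.ext c)⟩

include la

theorem exP (hP : P ∈ Ω) : ∃ x ∈ P, x ∉ om P :=
  (h.nel P hP).imp fun x hx => ⟨hx.1, fun c => hx.2 ((la.mem_om P hP x).1 c).2⟩

include le

omit la in
theorem pt (e : Nc Ω P Q) (o : OnL P Q R) : om R ≤ vv P Q ∧ vv P Q ≤ N[R] ∧
    ∀ x ∈ R, ∀ v ∈ vv P Q, v ∉ om R → x * v = v * x → x ∈ om R := by
  obtain ⟨l, hl, rfl⟩ := o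
  have e' := e.cj h l
  rw [← cj_eq_self (le.vnorm e.toAd hl), ← vv_cj]
  exact ⟨le_sup_left, le.vle e'.toAd, le.cA e'⟩

theorem lin (e : Nc Ω P Q) (o : OnL P Q R) (o' : OnL P Q R') (ne : R ≠ R') :
    Nc Ω R R' ∧ vv R R' = vv P Q := by
  have p := pt h le e o
  have q := pt h le e o'
  have m := o.mem h e.l
  have m' := o'.mem h e.l
  obtain ⟨i, hi, i1⟩ := exO h m
  obtain ⟨j, hj, j1⟩ := exO h m'
  obtain ⟨x, hx, hx'⟩ := exP h la m
  have e' := (ad_of m m' (om_le _ hi) i1 (q.2.1 (p.1 hi))).resolve_left ne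
  refine ⟨⟨e', x, hx, j, om_le _ hj, fun c => hx' (p.2.2 x hx j (q.1 hj)
    (fun k => j1 (one_of h e' (om_le _ k) (om_le _ hj))) c)⟩,
    eq_of_le_of_card_ge (sup_le p.1 q.1) ?_⟩
  rw [le.vcard e.toAd, le.vcard e', (h.card m e.l).1]

theorem sw2 (hP : P ∈ Ω) {g : G} (hg : g * g = 1) (e : Nc Ω P (cj g P)) : ∃ R s, Nc Ω R P ∧
    om R ≤ vv P (cj g P) ∧ s ∈ R ∧ s ∉ om R ∧ g ∈ N[R] ∧
      (g ∈ C[om R] → ∀ a ∈ om P, g * a * g⁻¹ = s * a * s⁻¹) := by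
  obtain ⟨x, hx, hx'⟩ := exP h la hP
  have hQ : cj g (cj g P) = P := by rw [← cj_mul, hg, cj_one]
  obtain ⟨s, R, o, h2, h3, h4, h5, -, h6, h7⟩ := le.swap e x hx hx' _ (conj_mem_cj (g := g) hx) (by
    rw [om_cj, mem_cj]; simpa [mul_assoc] using hx')
  have gV : g ∈ N[vv P (cj g P)] := by rw [← cj_eq_self_iff, ← vv_cj, hQ, vv_comm]
  have p := pt h le e o
  have l := lin h la le e o (onL_left _ _) (by
    rintro rfl
    exact e.ne ((cj_eq_self (le_normalizer h2)).symm.trans h5))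
  have k : ⁅s, g * s⁆ ∈ vv P (cj g P) := ((closure_le (cm _ (g * s))).2 (by
    refine Set.insert_subset ⟨le.vnorm e.toAd (mem_sup_left hx), ?_⟩ (Set.singleton_subset_iff.2
      ⟨le.vnorm e.toAd (mem_sup_right (conj_mem_cj hx)), ?_⟩)
    · convert inv_mem (nmem gV h6) using 1
      calc _ = g * g * x * (g * g)⁻¹ * (g * s * x⁻¹ * s⁻¹ * g⁻¹) := by
            rw [hg, commutatorElement_def]; group
        _ = _ := by simp [mul_assoc]
    · convert inv_mem (nmem gV h7) using 1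
      rw [commutatorElement_def]; group) h4).2
  obtain ⟨i, hi, i1⟩ := exO h l.1.l
  refine ⟨R, s, l.1, p.1, h2, h3, la.norm R l.1.l i (om_le _ hi) i1 g (om_le _ ?_),
    fun c a ha => ?_⟩
  · by_contra n
    refine h3 (p.2.2 s h2 _ (nmem gV (p.1 hi)) n ?_)
    have c1 := le.vcomm e.toAd _ k _ (nmem gV (p.1 hi))
    have c2 := h.comm R l.1.l s h2 i (om_le _ hi)
    calc _ = ⁅s, g * s⁆ * (g * (s * i) * g⁻¹) := by rw [commutatorElement_def]; group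
      _ = ⁅s, g * s⁆ * (g * i * g⁻¹) * (g * s * g⁻¹) := by rw [c2]; group
      _ = _ := by rw [c1, commutatorElement_def]; group
  · have b := c _ (le.brk l.1.toAd s h2 a (mem_sup_right ha))
    have m1 : g * a * g⁻¹ ∈ om (cj g P) := om_cj g P ▸ conj_mem_cj ha
    have m2 : s * a * s⁻¹ ∈ om (cj g P) := by rw [← h5, om_cj]; exact conj_mem_cj ha
    have m3 : g * (s * a * s⁻¹) * g⁻¹ ∈ om P := by
      have := conj_mem_cj (g := g) m2
      rwa [← om_cj, hQ] at this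
    have c1 := le.adc e.toAd _ m3 _ (inv_mem m1)
    have := one_of h e.toAd (mul_mem (om_le _ m3) (om_le _ ha)) (by
      convert om_le _ (mul_mem m1 m2) using 1
      rw [← inv_mul_eq_iff_eq_mul, ← mul_assoc, ← c1]
      calc _ = g * ⁅s, a⁆ * g⁻¹ * a := by rw [commutatorElement_def]; group
        _ = _ := by rw [← b, commutatorElement_def]; group)
    have e2 := inv_eq_of_mul_eq_one_right ((la.mem_om P hP a).1 ha).2
    rw [mul_eq_one_iff_eq_inv, e2] at this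
    calc _ = g * (g * (s * a * s⁻¹) * g⁻¹) * g⁻¹ := by rw [this]
      _ = g * g * (s * a * s⁻¹) * (g * g)⁻¹ := by group
      _ = _ := by rw [hg]; group

theorem der (e : Nc Ω P Q) {g : G} (h1 : g ∈ N[Q]) (h3 : g ∈ C[vv P Q]) :
    (∀ a ∈ Q, ⁅a, g⁆ ∈ om Q) ∧ g * g ∈ C[Q] := by
  have cv : ∀ v ∈ vv P Q, g * v * g⁻¹ = v := fun v hv => by rw [← h3 v hv, mul_inv_cancel_right]
  have k : ∀ a ∈ Q, ⁅a, g⁆ ∈ om Q := fun a ha => by
    obtain ⟨j, hj, hj'⟩ := exO h e.l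
    have jv : j ∈ vv P Q := mem_sup_left hj
    refine le.cA (la.nsymm e) _ (by
      rw [commutatorElement_def, mul_assoc, mul_assoc, ← mul_assoc g]
      exact mul_mem ha (nmem h1 (inv_mem ha))) j (mem_sup_right hj)
      (fun h4 => hj' (one_of h e.toAd (om_le _ hj) (om_le _ h4))) ?_
    have h5 := cv _ (nmem (le.vnorm e.toAd (mem_sup_right (inv_mem ha))) jv)
    rw [← mul_inv_eq_iff_eq_mul, commutatorElement_def]
    calc _ = a * (g * (a⁻¹ * (g⁻¹ * j * g) * a⁻¹⁻¹) * g⁻¹) * a⁻¹ := by group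
      _ = _ := by rw [mul_assoc g⁻¹, h3 j jv, inv_mul_cancel_left, h5]; group
  refine ⟨k, fun a ha => ?_⟩
  have h4 := cv _ (mem_sup_right (k a⁻¹ (inv_mem ha)))
  have h5 := ((la.mem_om Q e.r _).1 (k a⁻¹ (inv_mem ha))).2
  rw [← h4] at h5
  nth_rewrite 1 [h4] at h5
  rw [commutatorElement_def] at h5
  rw [eq_comm, ← mul_inv_eq_iff_eq_mul, eq_comm, ← inv_mul_eq_one, ← h5]
  group

theorem tl (e : Nc Ω P Q) {t : G} (h1 : t ∈ C[P]) (h2 : t ∈ N[Q]) :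
    t ∈ C[vv P Q] ∧ ∃ i ∈ om P, t * i ∈ C[Q] := by
  have cA : ∀ a ∈ P, t * a * t⁻¹ = a := fun a ha => by rw [← h1 a ha, mul_inv_cancel_right]
  obtain ⟨a, ha, ha'⟩ := exP h la e.l
  have h4 : t ∈ C[vv P Q] := by
    intro v hv
    obtain ⟨i, hi, j, hj, rfl⟩ := (le.vmem e.toAd v).1 hv
    have h5 := le.brk e.toAd a ha j (mem_sup_right hj)
    have h6 := (le.phi e a ha ha' _ h5).unique ⟨nmem (norm_om h2) hj, by
      rw [← cA _ (om_le _ h5), conjugate_commutatorElement, cA a ha]⟩ ⟨hj, rfl⟩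
    rw [mul_assoc, ← mul_inv_eq_iff_eq_mul.1 h6, ← mul_assoc, h1 i (om_le _ hi), mul_assoc]
  refine ⟨h4, ?_⟩
  obtain ⟨b, hb, hb'⟩ := exP h la e.r
  obtain ⟨s, R, o, k1, -, -, k2, -⟩ := le.swap e a ha ha' b hb hb'
  obtain ⟨i, hi, j, hj, k3⟩ := (le.vmem e.toAd _).1 (sup_le (c := cm (vv P Q) t)
    (fun a ha => ⟨le.vnorm e.toAd (mem_sup_left ha), by
      rw [commutatorElement_eq_one_iff_mul_comm.2 (h1 a ha)]; exact one_mem _⟩)
    (fun b hb => ⟨le.vnorm e.toAd (mem_sup_right hb),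
      mem_sup_right ((der h la le e h2 h4).1 b hb)⟩) (o.le k1)).2
  have k4 : s * t * s⁻¹ ∈ C[Q] := by
    rw [← k2, ← H83.cj_centralizer]; exact conj_mem_cj h1
  have k5 : j ∈ C[Q] := fun b hb => h.comm Q e.r b hb j (om_le _ hj)
  refine ⟨i, hi, ?_⟩
  have k6 : t * i = j⁻¹ * (s * t * s⁻¹) := by
    rw [← h1 i (om_le _ hi), eq_inv_mul_iff_mul_eq, ← mul_assoc, ← le.adc e.toAd i hi j hj, ← k3,
      commutatorElement_def]
    group
  exact k6 ▸ mul_mem (inv_mem k5) k4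

theorem tor (e : Nc Ω P Q) (q : 4 ≤ qq P) : ∃ τ ∈ P ⊔ Q, τ ∈ N[P] ∧ τ ∈ N[Q] ∧
    Odd (orderOf τ) ∧ Fpf τ (vv P Q) := by
  obtain ⟨a, ha, ha'⟩ := exP h la e.l
  obtain ⟨c, hc, hc', n⟩ : ∃ c ∈ P, c ∉ om P ∧ c * a⁻¹ ∉ om P := by
    by_contra! k
    have : qq P = 2 := relIndex_eq_two_iff_exists_notMem_and.2 ⟨a⁻¹, inv_mem ha,
      mt inv_mem_iff.1 ha', fun b hb => or_iff_not_imp_right.2 (k b hb)⟩
    omega
  obtain ⟨b, hb, hb'⟩ := exP h la e.r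
  obtain ⟨s, R, h1, h2, h3, -, h6, h7, h5, -⟩ := le.swap e a ha ha' b hb hb'
  obtain ⟨s', R', k1, k2, k3, -, k6, k7, -, k5⟩ := le.swap e c hc hc' b hb hb'
  have n1 : s' * s ∈ N[P] := by rw [← cj_eq_self_iff, cj_mul, h6, k7]
  have n2 : s' * s ∈ N[Q] := by rw [← cj_eq_self_iff, cj_mul, h7, k6]
  obtain ⟨l, lv⟩ := lin h la le e k1 h1 (by
    rintro rfl
    have l := (lin h la le e h1 (onL_left _ _) (by
      rintro rfl
      exact e.ne ((cj_eq_self (le_normalizer h2)).symm.trans h6))).1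
    have m := le.brk e.toAd a ha _ ((pt h le e h1).1 ((le.ax l).le ⟨mul_mem k2 h2, n1⟩))
    refine n ((le.vinf e.toAd).le (mem_inf.2 ⟨?_, mul_mem hc (inv_mem ha)⟩))
    convert mul_mem (inv_mem (mul_mem (nmem (le.vnorm e.toAd (k1.le k2)) h5) k5))
      (inv_mem (mem_sup_left m)) using 1
    rw [commutatorElement_def]; group)
  obtain ⟨⟨k, ⟨m, rfl⟩, hk⟩, f⟩ := lv ▸ le.odd l s' k2 k3 s h2 h3
  have m1 := mul_mem (k1.le k2) (h1.le h2)
  generalize s' * s = ρ at n1 n2 hk f m1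
  refine ⟨ρ * ρ, mul_mem m1 m1, mul_mem n1 n1, mul_mem n2 n2, (odd_two_mul_add_one m).of_dvd_nat
    (orderOf_dvd_of_pow_eq_one ((Commute.refl ρ).mul_pow _ ▸ le.vsq e.toAd _ hk)),
    fun v hv c => f v hv ?_⟩
  have c1 : Commute (ρ ^ (2 * m + 1)) v := le.vcomm e.toAd _ hk v hv
  have := ((Commute.pow_left c m).inv_left.mul_left c1).eq
  rwa [← sq, ← pow_mul, pow_succ, inv_mul_cancel_left] at this

omit la in
theorem part (e : Nc Ω P Q) (q : qq P = Nat.card (om P)) {v : G} (hv : v ∈ vv P Q)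
    (hv' : v ∉ om P) : ∃ x ∈ P, v ∈ cj x (om Q) := by
  obtain ⟨i, hi, j, hj, rfl⟩ := (le.vmem e.toAd v).1 hv
  have jv : j ∈ vv P Q := mem_sup_right hj
  let f : P →* om P := MonoidHom.mk' (fun x => ⟨⁅x.1, j⁆, le.brk e.toAd _ x.2 j jv⟩)
    fun x y => Subtype.ext (le.mul2 e.toAd _ x.2 _ y.2 j jv)
  have k : f.ker = (om P).subgroupOf P := by
    ext x
    refine (Subtype.ext_iff.trans commutatorElement_eq_one_iff_mul_comm).trans
      ⟨le.cA e _ x.2 j jv fun c => hv' (mul_mem hi c), fun c => le.adc e.toAd _ c j hj⟩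
  obtain ⟨x, hx⟩ := (eq_top_of_card_eq f.range (by rw [← index_ker, k]; exact q)).ge
    (mem_top ⟨i, hi⟩)
  refine ⟨x, x.2, ?_⟩
  convert conj_mem_cj (g := x.1) hj using 1
  exact (congrArg (·.1 * j) hx).symm.trans (inv_mul_cancel_right _ _)

omit h la le [Finite G] in
theorem lb : LBStmt.{u} := fun _ h la le =>
  ⟨fun e o => (pt h le e o).1, lin h la le, fun _ hP _ => sw2 h la le hP,
    fun e _ => tl h la le e, fun e _ a b => (der h la le e a b).2, tor h la le,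
    fun e q _ => part h le e q⟩

end Cfsg.Agent.H86.TL
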