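import Cfsg.Agent.H86.TBLb

/-! Project TB, piece LX: quadratic pairs of non-adjacent points. -/

set_option autoImplicit false
set_option linter.unusedSectionVars false

namespace Cfsg.Agent.H86.TL

open Cfsg Subgroup Cfsg.Agent.H6.TB
open Cfsg.Agent.H83 (cj mem_cj conj_mem_cj cj_mul cj_eq_self cj_eq_self_iff cj_one)
open scoped Cfsg.Agent.H63 commutatorElement

universe u

variable {G : Type u} [Group G]

theorem cl_comm {s : Set G} (hc : ∀ x ∈ s, ∀ y ∈ s, x * y = y * x) :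
    ∀ x ∈ closure s, ∀ y ∈ closure s, x * y = y * x := fun x hx _ hy =>
  closure_le_centralizer_centralizer s hy x ((closure_le (centralizer s)).2
    (fun a ha b hb => hc b hb a ha) hx)

theorem cl_two {s : Set G} (hc : ∀ x ∈ s, ∀ y ∈ s, x * y = y * x)
    (h2 : ∀ x ∈ s, ∃ k, x ^ 2 ^ k = 1) : IsPGroup 2 (closure s) :=
  H83.isPGroup_iff.2 fun _ hx => closure_induction h2 ⟨0, rfl.trans (one_pow _)⟩
    (fun x y hx hy ⟨k, hk⟩ ⟨l, hl⟩ => ⟨k + l, by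
      rw [Commute.mul_pow (cl_comm hc x hx y hy), pow_add, pow_mul, hk, mul_comm (2 ^ k), pow_mul,
        hl, one_pow, one_pow, one_mul]⟩)
    (fun x _ ⟨k, hk⟩ => ⟨k, by rw [inv_pow, hk, inv_one]⟩) hx

/-- A quadratic pair. -/
structure Qd (Ω : Set (Subgroup G)) (P Q : Subgroup G) : Prop where
  l : P ∈ Ω
  r : Q ∈ Ω
  n1 : ∀ x ∈ P, x ∈ N[Q] → x = 1
  n2 : ∀ x ∈ Q, x ∈ N[P] → x = 1
  c : ∀ a ∈ om P, ∀ g ∈ om Q, ⁅a, g⁆ ∈ C[om P] ∧ ⁅a, g⁆ ∈ C[om Q]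

variable {Ω : Set (Subgroup G)} {P Q R : Subgroup G}

theorem Qd.symm (q : Qd Ω P Q) : Qd Ω Q P := ⟨q.r, q.l, q.n2, q.n1, fun g hg a ha => by
  rw [← commutatorElement_inv]; exact ⟨inv_mem (q.c a ha g hg).2, inv_mem (q.c a ha g hg).1⟩⟩

theorem Qd.mul (q : Qd Ω P Q) {a g k : G} (ha : a ∈ om P) (hg : g ∈ om Q) (hk : k ∈ om Q) :
    ⁅a, g * k⁆ = ⁅a, g⁆ * ⁅a, k⁆ :=
  calc _ = ⁅a, g⁆ * (g * ⁅a, k⁆) * g⁻¹ := by simp only [commutatorElement_def]; group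
    _ = _ := by rw [(q.c a ha k hk).2 g hg, ← mul_assoc, mul_inv_cancel_right]

variable [Finite G] (h : TB Ω) (la : LA Ω) (le : H6.TB.LE Ω) (lb : LB Ω)
include la

theorem om_inv (hP : P ∈ Ω) {a : G} (ha : a ∈ om P) : a⁻¹ = a :=
  inv_eq_of_mul_eq_one_right ((la.mem_om P hP a).1 ha).2

theorem Qd.ne (q : Qd Ω P Q) {a g : G} (ha : a ∈ om P) (hg : g ∈ om Q) (a1 : a ≠ 1) (g1 : g ≠ 1) :
    ⁅a, g⁆ ≠ 1 := fun c => g1 (q.n2 g (om_le _ hg)
  (la.cent P q.l a (om_le _ ha) a1 g (commutatorElement_eq_one_iff_mul_comm.1 c).symm))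

include h

theorem Qd.ad (q : Qd Ω P Q) {g : G} (hg : g ∈ om Q) (g1 : g ≠ 1) : Ad Ω P (cj g P) := by
  obtain ⟨a, ha, a1⟩ := exO h q.l
  refine (ad_of q.l (h.conj P q.l g) (om_le _ ha) a1 (la.cent _ (h.conj P q.l g) _
    (conj_mem_cj (inv_mem (om_le _ ha))) (by simpa using a1) a ?_)).resolve_left
    fun c => g1 (q.n2 g (om_le _ hg) (cj_eq_self_iff.1 c.symm))
  have := (q.c a ha g hg).1 a ha
  rwa [commutatorElement_def, mul_assoc a g, mul_assoc a, mul_assoc a, mul_right_inj] at this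

include le lb

theorem iv (e : Nc Ω R P) {g x : G} (g2 : g * g = 1) (gN : g ∈ N[R]) (gC : g ∈ C[om R])
    (hx : x ∈ R) (c : g * x ∈ C[om P]) : Iv g x := by
  have d := lb.der e _ (la.com P e.r c) (by
    rw [vv, H83.centralizer_sup]
    exact ⟨mul_mem gC fun i hi => h.comm R e.l i (om_le _ hi) x hx, c⟩)
  have e1 : g * x * (g * x) = g * x * g⁻¹ * x := by
    rw [inv_eq_of_mul_eq_one_right g2, ← mul_assoc]
  have m := (le.ax e).le ⟨e1 ▸ mul_mem (nmem gN hx) hx, centralizer_le_normalizer _ d⟩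
  obtain ⟨y, hy, hy'⟩ := exP h la e.r
  refine eq_inv_of_mul_eq_one_left (e1 ▸ one_of h e.toAd (om_le _ m) (om_le _ ?_))
  by_contra n
  exact hy' (le.cA (la.nsymm e) y hy _ (mem_sup_right m) n (d y hy))

theorem os (q : Qd Ω P Q) {y g : G} (hy : y ∈ P) (hg : g ∈ om Q)
    (n : ¬ ∀ a ∈ om P, Commute y ⁅a, g⁆) : ∃ R, Nc Ω R P ∧ Nc Ω R Q ∧
      (∃ s ∈ R, s ∉ om R ∧ g * s ∈ C[om P] ∧ Iv g s) ∧ ∀ a ∈ om P, ⁅a, g⁆ ∈ om R := by
  have g1 : g ≠ 1 := fun c => n fun a _ => by simp [c]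
  have g2 := ((la.mem_om Q q.r g).1 hg).2
  have e := (q.ad h la hg g1).cm_or.resolve_left fun c => n fun a ha => by
    rw [commutatorElement_def, mul_assoc a, mul_assoc a]
    exact Commute.mul_right (h.comm P q.l y hy a (om_le _ ha))
      (c.comm y hy _ (conj_mem_cj (inv_mem (om_le _ ha))))
  obtain ⟨R, s, e1, -, hs, hs', gN, k⟩ := lb.sw2 P q.l g g2 e
  obtain ⟨i, hi, i1⟩ := exO h e1.l
  have e2 := (ad_of q.r e1.l (om_le _ hg) g1 gN).resolve_left fun c =>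
    i1 (q.n2 i (c ▸ om_le _ hi) (le.vle (la.symm e1.toAd) (mem_sup_right hi)))
  have gC : g ∈ C[om R] := fun r hr => (le.adc e2 g hg r hr).symm
  have c : g * s ∈ C[om P] := fun a ha => by
    calc _ = g * g * a * (g * g)⁻¹ * (g * s) := by rw [g2]; group
      _ = g * (g * a * g⁻¹) * s := by group
      _ = _ := by rw [k gC a ha]; group
  have v := iv h la le lb e1 g2 gN gC hs c
  refine ⟨R, e1, ⟨la.symm e2, s, hs, g, om_le _ hg, fun c => hs' ((la.mem_om R e1.l s).2 ⟨hs, ?_⟩)⟩,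
    ⟨s, hs, hs', c, v⟩, fun a ha => ?_⟩
  · rw [Iv, ← c, mul_inv_cancel_right] at v
    exact mul_eq_one_iff_eq_inv.2 v
  · convert inv_mem (le.brk e1.toAd s hs a (mem_sup_right ha)) using 1
    rw [commutatorElement_inv]
    simp only [commutatorElement_def, mul_assoc a, k gC _ (inv_mem ha)]

omit le lb in
theorem Qd.cm (q : Qd Ω P Q) {y : G} (hy : y ∈ P) (hy' : y ∉ om P) (le : H6.TB.LE Ω) :
    ∃ g ∈ om Q, ¬ ∀ a ∈ om P, Commute y ⁅a, g⁆ := by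
  by_contra! K
  have k : ∀ g ∈ om Q, ∀ x ∈ P, ∀ z ∈ cj g P, x * z = z * x := fun g hg => by
    rcases eq_or_ne g 1 with rfl | g1
    · rw [cj_one]; exact h.comm P q.l
    refine ((q.ad h la hg g1).cm_or.resolve_right fun e => ?_).comm
    obtain ⟨a, ha, a1⟩ := exO h q.l
    have m : g * a⁻¹ * g⁻¹ ∈ om (cj g P) := om_cj g P ▸ conj_mem_cj (inv_mem ha)
    refine hy' (le.cA e y hy _ (mem_sup_right m)
      (fun c => a1 (by simpa using one_of h e.toAd (om_le _ c) (om_le _ m))) ?_)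
    have := (Commute.inv_right (h.comm P q.l y hy a (om_le _ ha))).mul_right (K g hg a ha)
    rwa [commutatorElement_def, mul_assoc a, mul_assoc a, inv_mul_cancel_left] at this
  let s : Set G := {x | ∃ g ∈ om Q, x ∈ cj g P}
  have hc : ∀ x ∈ s, ∀ z ∈ s, x * z = z * x := by
    rintro x ⟨g, hg, hx⟩ z ⟨g', hg', hz⟩
    have := k _ (mul_mem (inv_mem hg) hg') _ (mem_cj.1 hx) (g⁻¹ * z * g)
      (mem_cj.2 (by simpa [mul_assoc] using mem_cj.1 hz))
    exact mul_right_cancel (b := g) (by simpa [mul_assoc] using this)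
  have sP : ∀ x ∈ P, x ∈ closure s := fun x hx => subset_closure ⟨1, one_mem _, by rwa [cj_one]⟩
  obtain ⟨g, hg, g1⟩ := exO h q.r
  refine g1 (q.n2 g (om_le _ hg) (la.cent P q.l _ (mul_mem hy hy)
    (fun c => hy' ((la.mem_om P q.l y).2 ⟨hy, c⟩)) g (la.fg Q q.r _ (om Q) (cl_two hc ?_) (cl_comm hc)
    (eq_bot_iff.2 fun x hx => q.n2 x hx.2 (centralizer_le_normalizer _ fun z hz =>
      cl_comm hc z (sP z hz) x hx.1)) (om_le Q) (fun g hg => mem_normalizer_fintype fun x hx => ?_)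
    (h.four Q q.r) y (sP y hy) g hg).symm))
  · rintro x ⟨g, -, hx⟩
    exact H83.isPGroup_iff.1 (h.two _ (h.conj P q.l g)) x hx
  · refine (H83.cj_closure g s).le.trans (closure_mono ?_) (conj_mem_cj hx)
    rintro _ ⟨x, ⟨g', hg', hx⟩, rfl⟩
    exact ⟨_, mul_mem hg hg', cj_mul g g' P ▸ conj_mem_cj hx⟩

theorem os2 (q : Qd Ω P Q) (e : Nc Ω R P) {a : G} (ha : a ∈ om P) (a1 : a ≠ 1)
    (b : ∀ g ∈ om Q, ⁅a, g⁆ ∈ om R) {g : G} (hg : g ∈ om Q) (g1 : g ≠ 1) :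
    (∃ s ∈ R, s ∉ om R ∧ g * s ∈ C[om P] ∧ Iv g s) ∧ ∀ a ∈ om P, ⁅a, g⁆ ∈ om R := by
  obtain ⟨y, hy, hy'⟩ := exP h la q.l
  obtain ⟨R', e1, -, k1, k2⟩ := os h la le lb q hy hg fun c => hy' (le.cA (la.nsymm e) y hy _
    (mem_sup_right (b g hg))
    (fun k => q.ne la ha hg a1 g1 (one_of h e.toAd (om_le _ (b g hg)) (om_le _ k))) (c a ha))
  obtain rfl := la.eq R e.l R' e1.l _ (om_le _ (b g hg)) (om_le _ (k2 a ha)) (q.ne la ha hg a1 g1)
  exact ⟨k1, k2⟩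

omit le lb in
theorem qd (hP : P ∈ Ω) (hQ : Q ∈ Ω) (ne : P ≠ Q) (na : ¬ Ad Ω P Q)
    (H : ∀ g ∈ om Q, ∀ a ∈ om P, ∀ b ∈ om P, a * (g * b * g⁻¹) = g * b * g⁻¹ * a) : Qd Ω P Q := by
  have n2 : ∀ x ∈ Q, x ∈ N[P] → x = 1 := fun x hx c => by_contra fun n =>
    na (la.symm ((ad_of hQ hP hx n c).resolve_left ne.symm))
  have k : ∀ g ∈ om Q, ∀ a ∈ om P, g * a * g⁻¹ ∈ C[om P] := fun g hg a ha b hb => H g hg b hb a ha
  have k1 : ∀ a ∈ om P, a ∈ C[om P] := fun a ha => by simpa using k 1 (one_mem _) a ha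
  have sp : ∀ a g : G, ⁅a, g⁆ = a * (g * a⁻¹ * g⁻¹) := fun a g => by
    rw [commutatorElement_def]; group
  have k2 : ∀ a ∈ om P, ∀ g ∈ om Q, ⁅a, g⁆ ∈ C[om P] := fun a ha g hg =>
    sp a g ▸ mul_mem (k1 a ha) (k g hg _ (inv_mem ha))
  refine ⟨hP, hQ, fun x hx c => by_contra fun n => na ((ad_of hP hQ hx n c).resolve_left ne), n2,
    fun a ha g hg => ⟨k2 a ha g hg, fun f hf => ?_⟩⟩
  rcases eq_or_ne g 1 with rfl | g1
  · simp
  have c : ⁅a, g⁆ ∈ N[Q] := la.cent Q hQ g (om_le _ hg) g1 _ (by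
    rw [eq_comm, ← mul_inv_eq_iff_eq_mul, sp, om_inv la hP ha]
    calc _ = g * a * g⁻¹ * (g * g * a * (g * g)⁻¹) := by simp [mul_assoc]
      _ = _ := by rw [((la.mem_om Q hQ g).1 hg).2, H g hg a ha a ha]; group)
  refine commutatorElement_eq_one_iff_mul_comm.1 (n2 _ ?_ (la.com P hP ?_))
  · rw [commutatorElement_def f, mul_assoc f, mul_assoc f]
    exact mul_mem (om_le _ hf) (nmem c (inv_mem (om_le _ hf)))
  · rw [commutatorElement_def]
    refine mul_mem ?_ (inv_mem (k2 a ha g hg))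
    convert mul_mem (k f hf a ha) (k _ (mul_mem hf hg) _ (inv_mem ha)) using 1
    rw [sp]; group

omit h la le lb [Finite G] in
theorem lx : LXStmt.{u} := by
  intro G _ _ Ω h la le lb lq P hP Q hQ ne na H
  have q := qd h la hP hQ ne na H
  obtain ⟨y, hy, hy'⟩ := exP h la hQ
  obtain ⟨a, ha, n⟩ := q.symm.cm h la hy hy' le
  obtain ⟨R, e2, e1, -, k⟩ := os h la le lb q.symm hy ha n
  have a1 : a ≠ 1 := fun c => n fun a _ => by simp [c]
  have s2 := fun g hg => os2 h la le lb q e1 ha a1 (g := g)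
    (fun g hg => commutatorElement_inv g a ▸ inv_mem (k g hg)) hg
  have br : ∀ a ∈ om P, ∀ g ∈ om Q, ⁅a, g⁆ ∈ om R := fun a ha g hg => by
    rcases eq_or_ne g 1 with rfl | g1
    · simp
    · exact (s2 g hg g1).2 a ha
  obtain ⟨g, hg, g1⟩ := exO h hQ
  have rC : om R ≤ C[om P] := fun r hr a ha => (le.adc e1.toAd r hr a ha).symm
  have qC : om Q ≤ C[om R] := fun g hg r hr => le.adc e2.toAd r hr g hg
  have ex : ∀ g : om Q, ∃ s : R, g.1 * s ∈ C[om P] := fun g => by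
    rcases eq_or_ne g.1 1 with c | c
    · exact ⟨1, by simp [c]⟩
    · obtain ⟨s, hs, -, k, -⟩ := (s2 g.1 g.2 c).1
      exact ⟨⟨s, hs⟩, k⟩
  choose f hf using ex
  have inj : Function.Injective fun g => (f g : R ⧸ (om R).subgroupOf R) := fun g g' e => by
    have := mul_mem (mul_mem (hf g) (rC (QuotientGroup.eq (a := f g).1 e))) (inv_mem (hf g'))
    exact Subtype.ext (mul_inv_eq_one.1 (q.n2 _ (om_le _ (mul_mem g.2 (inv_mem g'.2)))
      (la.com P hP (by simpa [mul_assoc] using this))))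
  have c1 : qq R ≤ Nat.card (om Q) := (h.card e2.l hQ).1 ▸ le.qh e2
  have bij := inj.bijective_of_nat_card_le c1
  have c2 : qq R = Nat.card (om R) := (Nat.card_eq_of_bijective _ bij).symm.trans
    (h.card hQ e2.l).1
  have iv' : ∀ g ∈ om Q, ∀ x ∈ R, g * x ∈ C[om P] → Iv g x := fun g hg x hx =>
    iv h la le lb e1 ((la.mem_om Q hQ g).1 hg).2 (le.vle e2.toAd (mem_sup_right hg)) (qC hg) hx
  have T : ∀ x ∈ R, x ∉ om R → ∀ a ∈ om Q, Iv a x → a * x ∈ C[om P] := fun x hx hx' a ha v => by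
    obtain ⟨g, e⟩ := bij.2 (⟨x, hx⟩ : R)
    have m : g.1 * x ∈ C[om P] := by
      simpa [mul_assoc] using mul_mem (hf g) (rC (QuotientGroup.eq (a := f g).1 e))
    exact (le.ivE e2 x hx hx').unique ⟨g.2, iv' _ g.2 x hx m⟩ ⟨ha, v⟩ ▸ m
  have c4 := (lq e2 c2 fun x hx hx' y hy hy' a ha b hb v w => iv' _ (mul_mem ha hb) _
    (mul_mem hx hy) (by
      have m := inv_mem (le.brk e2.toAd x hx b (mem_sup_right hb))
      convert mul_mem (rC m) (mul_mem (T x hx hx' a ha v) (T y hy hy' b hb w)) using 1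
      rw [mul_assoc a x, ← mul_assoc _ a, qC ha _ m, commutatorElement_def]; group)).antisymm
    (h.four R e2.l)
  refine ⟨R, e1, e2, ne, na, br, fun r hr => ?_, fun a ha a1 => (os2 h la le lb q.symm e2 hg g1
    (fun a ha => commutatorElement_inv a g ▸ inv_mem (br a ha g hg)) ha a1).1,
    fun g hg g1 => (s2 g hg g1).1, c4, c2.trans c4⟩
  obtain ⟨s, hs, hs', k, -⟩ := (s2 g hg g1).1
  obtain ⟨j, ⟨hj, e⟩, -⟩ := le.phi e1 s hs hs' _ (inv_mem hr)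
  refine ⟨j, hj, g, hg, inv_injective (e.symm.trans ?_)⟩
  rw [commutatorElement_inv, commutatorElement_def, commutatorElement_def, mul_left_inj,
    ← om_inv la hQ hg]
  calc _ = g⁻¹ * (g * s * j) * s⁻¹ := by group
    _ = _ := by rw [← k j hj]; group

end Cfsg.Agent.H86.TL
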